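import Mathlib
import Cfsg.Agent.MonL.Wt

/-! Representations over the field with two elements of a group `3^4 : (2 × A6)` with ten weights. -/

set_option autoImplicit false

namespace Cfsg.Agent.MonL.W3

open Subgroup Cfsg.Agent.C1M Cfsg.Agent.Comp Module

variable {G : Type*} [Group G] {x : ℕ → G} {ρ : G →* EV}

theorem rho_mul (ρ : G →* EV) (a b : G) (v : V) : ρ (a * b) v = ρ a (ρ b v) := by rw [map_mul]; rfl

theorem Wt.comb {l : ℕ → ℕ} {p q : V × V} (hp : Wt ρ x l p) (hq : Wt ρ x l q) (c : ZMod 2) :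
    Wt ρ x l (p + c • q) := fun i hi => by
  rcases z2 c with rfl | rfl
  · simpa using hp i hi
  · rw [one_smul, lp_add, om_add, hp i hi, hq i hi]

theorem Wt.uniq {l m : ℕ → ℕ} {p : V × V} (h : Wt ρ x l p) (h' : Wt ρ x m p) (hl : NZ l) (h0 : p.1 ≠ 0) :
    ∀ i < 6, l i % 3 = m i % 3 := fun i hi => by
  have := h.mod_of_fix hl h0 (n := 2 * l i + m i) (by
    rw [Function.iterate_add_apply, ← h' i hi, h i hi, ← Function.iterate_add_apply,
      om_congr (m := 0) (by omega)]; rfl)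
  omega

theorem Wt.swap {l m : ℕ → ℕ} {p : V × V} (h : Wt ρ x m p) (e : ∀ i < 6, 2 * l i % 3 = m i % 3) :
    Wt ρ x l (p.1, p.1 + p.2) := fun i hi => by
  have h1 := h i hi
  have h2 := e i hi
  have t : (2 : V) = 0 := CharTwo.two_eq_zero
  rcases om_cases (m i) p with ⟨a, b⟩ | ⟨a, b⟩ | ⟨a, b⟩ <;>
    rcases om_cases (l i) (p.1, p.1 + p.2) with ⟨c, d⟩ | ⟨c, d⟩ | ⟨c, d⟩ <;> first | omega | skip
  all_goals
    rw [b] at h1
    obtain ⟨h3, h4⟩ := Prod.ext_iff.1 h1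
    simp only [lp] at h3 h4
    simp only [d, lp, map_add, h3, h4, Prod.mk.injEq, true_and]
  all_goals grind

/-- fixed by the normal subgroup -/
def FE (ρ : G →* EV) (x : ℕ → G) (v : V) : Prop := ∀ i < 6, ρ (x i) v = v

theorem FE.of_mem {v : V} (h : FE ρ x v) {y : G} (hy : y ∈ EE x) : ρ y v = v := by
  induction hy using closure_induction with
  | mem a ha => obtain ⟨i, hi, rfl⟩ := ha; exact h i hi
  | one => simp
  | mul a b _ _ ha hb => rw [rho_mul, hb, ha]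
  | inv a _ ha => rw [← ha, ← rho_mul, inv_mul_cancel, ha]; simp

theorem FE.map {v : V} (h : FE ρ x v) {k : G} (hk : k ∈ HH x) : FE ρ x (ρ k v) := fun i hi => by
  have := h.of_mem ((mem_normalizer_iff.1 (inv_mem hk.1) _).1 (subset_closure ⟨i, hi, rfl⟩))
  conv_rhs => rw [← this]
  rw [← rho_mul, ← rho_mul]
  congr 2; group

theorem FE.add {v w : V} (h : FE ρ x v) (h' : FE ρ x w) : FE ρ x (v + w) := fun i hi => by
  rw [map_add, h i hi, h' i hi]

theorem FE.smul {v : V} (h : FE ρ x v) (c : ZMod 2) : FE ρ x (c • v) := fun i hi => by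
  rw [map_smul, h i hi]

theorem indep_fix {J K : Type*} [Fintype J] [Fintype K] {p : J → V × V} {l : J → ℕ → ℕ}
    (hW : ∀ j, Wt ρ x (l j) (p j)) (hN : Pairwise fun j k => NP (l j) (l k))
    (hZ : ∀ j, NZ (l j)) (h0 : ∀ j, (p j).1 ≠ 0) {o : K → V} (ho : LinearIndependent (ZMod 2) o)
    (hf : ∀ k, FE ρ x (o k)) : LinearIndependent (ZMod 2) (Sum.elim (fam p) o) := by
  refine (indep hW hN hZ h0).sum_type ho (Submodule.disjoint_def.2 fun v h1 h2 => ?_)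
  obtain ⟨c, rfl⟩ := (Submodule.mem_span_range_iff_exists_fun _).1 h1
  have h3 : FE ρ x (∑ i, c i • fam p i) := fun i hi => by
    obtain ⟨d, e⟩ := (Submodule.mem_span_range_iff_exists_fun _).1 h2
    rw [← e, map_sum]
    exact Finset.sum_congr rfl fun k _ => (hf k).smul _ i hi
  rw [Fintype.sum_sum_type, ← Finset.sum_add_distrib] at h3 ⊢
  set u : J → V := fun j => c (.inl j) • fam p (.inl j) + c (.inr j) • fam p (.inr j)
  have hs : ∀ j, Sp (p j) (u j) := fun j => ⟨_, _, rfl⟩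
  refine Finset.sum_eq_zero fun j _ => ?_
  obtain ⟨i, hi, n⟩ := hZ j
  have h4 : ∀ k, tr3 (ρ (x i)) (u k) = _ := fun k => (hs k).tr3 (hW k i hi)
  have h5 := sum_zero hW hN (v := fun k => u k + tr3 (ρ (x i)) (u k)) (fun k => by
      rw [h4]
      split_ifs
      · exact ⟨0, 0, by simp [vv]⟩
      · simpa using hs k) Finset.univ
    (by rw [Finset.sum_add_distrib, ← map_sum, tr3_fix (h3 i hi), vv]) j (Finset.mem_univ j)
  simpa [h4, n] using h5

/-- ten weights -/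
structure Fr2 (x : ℕ → G) (l : Fin 10 → ℕ → ℕ) (t : Fin 10 → G) : Prop extends St x where
  mem : ∀ j, t j ∈ HH x
  mv : ∀ j, Mv x (t j) (l 0) (l j)
  np : Pairwise fun j k => NP (l j) (l k)
  t0 : t 0 = 1
  cls : ∀ (ρ : G →* EV) m q, Wt ρ x m q → q.1 ≠ 0 → NZ m →
    ∃ j, (∀ i < 6, l j i % 3 = m i % 3) ∨ ∀ i < 6, 2 * l j i % 3 = m i % 3

namespace Fr2

variable {l : Fin 10 → ℕ → ℕ} {t : Fin 10 → G} (h : Fr2 x l t) {p : V × V}
include h

theorem nz (j : Fin 10) : NZ (l j) := by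
  obtain ⟨k, hk⟩ := exists_ne j
  exact (h.np hk.symm).nz

theorem sp (hp : Wt ρ x (l 0) p) (h0 : p.1 ≠ 0) {q : V × V} (hq : Wt ρ x (l 0) q) : Sp p q.1 := by
  by_contra hh
  have : LinearIndependent (ZMod 2) (Sum.elim (fun j => ρ (t j) q.1) (fam fun j => lp (ρ (t j)) p)) := by
    rw [Fintype.linearIndependent_iff]
    intro c hc
    rw [Fintype.sum_sum_type, Fintype.sum_sum_type, ← Finset.sum_add_distrib, ← Finset.sum_add_distrib] at hc
    have w := fun j => (((hp.comb hp 1).comb hq (c (.inl j))).comb hp (c (.inr (.inl j)))).comb (hp.om 1)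
      (c (.inr (.inr j)))
    have h1 := fun j => sum_zero (fun j => h.mv j ρ _ (w j)) h.np (fun j => ⟨1, 0, by
      simp [lp, vv', om, fam, add_assoc]⟩) _ hc j (Finset.mem_univ j)
    have h2 : ∀ j, c (.inl j) = 0 ∧ c (.inr (.inl j)) = 0 ∧ c (.inr (.inr j)) = 0 := fun j => by
      have h3 : c (.inl j) • q.1 + (c (.inr (.inl j)) • p.1 + c (.inr (.inr j)) • p.2) = 0 := by
        by_contra n
        exact ne_zero_map ρ (t j) n (by simpa [fam, lp] using h1 j)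
      have h4 : c (.inl j) = 0 := (z2 _).resolve_right fun e => hh ⟨_, _, by
        rw [e, one_smul] at h3
        exact (eq_neg_of_add_eq_zero_left h3).trans (CharTwo.neg_eq _)⟩
      have h5 := hp.ne (h.nz 0) h0
      rcases z2 (c (.inr (.inl j))) with a | a <;> rcases z2 (c (.inr (.inr j))) with b | b <;> simp_all
    rintro (j | j | j)
    exacts [(h2 j).1, (h2 j).2.1, (h2 j).2.2]
  simpa using this.fintype_card_le_finrank

theorem mv6 : Mv x (x 6) (l 0) fun i => 2 * l 0 i :=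
  mv_of fun i hi => ⟨_, L6_two hi, h.inv i hi, by simp [lw, two_mul]⟩

theorem exists_norm (hp : Wt ρ x (l 0) p) (h0 : p.1 ≠ 0) :
    ∃ p, Wt ρ x (l 0) p ∧ p.1 ≠ 0 ∧ ρ (x 6) p.1 = p.1 := by
  have h1 : ∀ v, ρ (x 6) (ρ (x 6) v) = v := fun v => by rw [← rho_mul, h.sq, map_one]; rfl
  obtain ⟨a, b, e⟩ := h.sp hp h0 ((h.mv6 ρ p hp).swap fun _ _ => rfl)
  change ρ (x 6) p.1 = _ at e
  rcases z2 a with rfl | rfl <;> rcases z2 b with rfl | rfl <;>
    simp only [zero_smul, one_smul, add_zero, zero_add] at e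
  · exact absurd e (ne_zero_map ρ _ h0)
  · refine ⟨_, hp.om 2, hp.om_ne (h.nz 0) h0 2, ?_⟩
    rw [om2]
    simp only [map_add]
    rw [← e, h1, add_comm]
  · exact ⟨p, hp, h0, e⟩
  · refine ⟨_, hp.om 1, hp.om_ne (h.nz 0) h0 1, ?_⟩
    change ρ (x 6) p.2 = p.2
    rw [← vv' p.1 p.2, map_add, ← e, h1, add_comm]

theorem key (hp : Wt ρ x (l 0) p) (h0 : p.1 ≠ 0) (h6 : ρ (x 6) p.1 = p.1) {k : G} {m : ℕ → ℕ}
    (hm : Mv x k (l 0) m) {j : Fin 10}
    (hj : (∀ i < 6, l j i % 3 = m i % 3) ∨ ∀ i < 6, 2 * l j i % 3 = m i % 3) {w : List ℕ} (hw : L6 w)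
    (e : (x 6)⁻¹ * ((t j)⁻¹ * k) * x 6 * ((t j)⁻¹ * k)⁻¹ = BN.ev x w) :
    ρ k p.1 = (lp (ρ (t j)) (om^[lw (l 0) w] p)).1 := by
  suffices ρ ((t j)⁻¹ * k) p.1 = (om^[lw (l 0) w] p).1 by
    change _ = ρ (t j) _
    rw [← this, ← rho_mul, mul_inv_cancel_left]
  obtain ⟨a, b, e1⟩ : Sp p (ρ ((t j)⁻¹ * k) p.1) := by
    obtain ⟨n, hn⟩ := h.toSt.exists_mv (inv_mem (h.mem j)) (l j)
    have h1 := ((h.mv j).mul hn) ρ p hp
    rw [inv_mul_cancel, map_one] at h1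
    have h2 := hp.uniq h1 (h.nz 0) h0
    rw [rho_mul]
    rcases hj with hj | hj
    · exact h.sp hp h0 ((hn ρ _ ((hm ρ p hp).congr hj)).congr h2)
    · exact h.sp hp h0 ((hn ρ _ ((hm ρ p hp).swap hj)).congr h2)
  have q0 := ne_zero_map ρ ((t j)⁻¹ * k) h0
  have f : ρ (x 6) (ρ (BN.ev x w) (ρ ((t j)⁻¹ * k) p.1)) = ρ ((t j)⁻¹ * k) p.1 := by
    rw [← e, ← rho_mul, ← rho_mul]
    conv_rhs => rw [← h6, ← rho_mul]
    congr 2; group
  have h7 : ρ (x 6) p.2 = p.1 + p.2 := by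
    obtain ⟨u, hu, eu⟩ := (h.nz 0).one
    have h1 := (h.mv6 ρ p hp).ev hu
    have h2 := hp.ev hu
    rw [om_mod, Fr.lw_two, Nat.mul_mod, eu, om2] at h1
    rw [om_mod, eu] at h2
    have h3 : ρ (BN.ev x u) (ρ (x 6) p.1) = ρ (x 6) p.1 + ρ (x 6) p.2 := (Prod.ext_iff.1 h1).1
    have h4 : ρ (BN.ev x u) p.1 = p.2 := (Prod.ext_iff.1 h2).1
    rw [h6, h4] at h3
    exact ((congrArg (p.1 + ·) h3).trans (vv' _ _)).symm
  have h8 := hp.ev hw
  obtain ⟨n1, n2⟩ := hp.ne (h.nz 0) h0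
  have t : (2 : V) = 0 := CharTwo.two_eq_zero
  rw [e1] at q0 f ⊢
  rcases om_cases (lw (l 0) w) p with ⟨-, e'⟩ | ⟨-, e'⟩ | ⟨-, e'⟩ <;> rw [e'] at h8 ⊢ <;>
    obtain ⟨h2, h3⟩ := Prod.ext_iff.1 h8 <;> simp only [lp] at h2 h3 <;>
    rcases z2 a with rfl | rfl <;> rcases z2 b with rfl | rfl <;>
    simp only [zero_smul, one_smul, add_zero, zero_add, map_add, h2, h3, h6, h7] at f q0 ⊢ <;>
    grind

theorem star [Finite G] {σ : G →* EV} {q : V × V} (hq : Wt σ x (l 0) q) (q0 : q.1 ≠ 0)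
    (q6 : σ (x 6) q.1 = q.1) (hp : Wt ρ x (l 0) p) (h0 : p.1 ≠ 0) (h6 : ρ (x 6) p.1 = p.1) {T : EV}
    (hT : ∀ j, lp T (lp (σ (t j)) q) = lp (ρ (t j)) p) {k : G} (hk : k ∈ HH x) :
    lp T (lp (σ k) q) = lp (ρ k) p := by
  obtain ⟨u, hu, eu⟩ := (h.nz 0).one
  have sec : ∀ (ρ : G →* EV) (p : V × V), Wt ρ x (l 0) p → lp (ρ (BN.ev x u)) p = om p := fun ρ p hp => by
    rw [hp.ev hu, om_mod, eu]; rfl
  have st : ∀ k ∈ HH x, T (σ k q.1) = ρ k p.1 := fun k hk => by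
    obtain ⟨m, hm⟩ := h.toSt.exists_mv hk (l 0)
    obtain ⟨j, hj⟩ := h.cls ρ m _ (hm ρ p hp) (ne_zero_map ρ _ h0) (by
      by_contra n
      simp only [NZ, not_exists, not_and, not_not] at n
      have h1 : FE ρ x (ρ k p.1) := fun i hi => by
        have := hm ρ p hp i hi
        rw [om_mod, n i hi] at this
        exact (Prod.ext_iff.1 this).1
      have h2 := (h1.map (inv_mem hk)).of_mem (ev_mem_EE hu)
      rw [← rho_mul ρ k⁻¹, inv_mul_cancel, map_one] at h2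
      exact (hp.ne (h.nz 0) h0).2 (by
        rw [← show ρ (BN.ev x u) p.1 = p.2 from (Prod.ext_iff.1 (sec ρ p hp)).1]
        exact (congrArg _ h2).trans (vv _)))
    obtain ⟨w, hw, e⟩ := h.toSt.exists_word (mul_mem (inv_mem (h.mem j)) hk).2
    rw [h.key hq q0 q6 hm hj hw e, h.key hp h0 h6 hm hj hw e, lp_om, lp_om, ← hT, ← lp_om T]
    rfl
  refine Prod.ext (st k hk) ?_
  have := st _ (mul_mem hk (h.toSt.EE_le (ev_mem_EE hu)))
  rwa [rho_mul, rho_mul, show σ _ q.1 = q.2 from (Prod.ext_iff.1 (sec σ q hq)).1,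
    show ρ _ p.1 = p.2 from (Prod.ext_iff.1 (sec ρ p hp)).1] at this

theorem ind (hp : Wt ρ x (l 0) p) (h0 : p.1 ≠ 0) {K : Type*} [Fintype K] {o : K → V}
    (ho : LinearIndependent (ZMod 2) o) (hf : ∀ k, FE ρ x (o k)) :
    LinearIndependent (ZMod 2) (Sum.elim (fam fun j => lp (ρ (t j)) p) o) :=
  indep_fix (fun j => h.mv j ρ p hp) h.np h.nz (fun _ => ne_zero_map ρ _ h0) ho hf

end Fr2

theorem Wt.mem {l : ℕ → ℕ} {p : V × V} (h : Wt ρ x l p) (hl : NZ l) {N : Submodule (ZMod 2) V}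
    (hN : ∀ g v, ρ g v + v ∈ N) : p.1 ∈ N ∧ p.2 ∈ N := by
  obtain ⟨w, hw, e⟩ := hl.one
  have h1 := h.ev hw
  rw [om_mod, e] at h1
  obtain ⟨h2, h3⟩ := Prod.ext_iff.1 h1
  change ρ _ p.1 = p.2 at h2
  change ρ _ p.2 = p.1 + p.2 at h3
  have h4 := hN (BN.ev x w) p.2
  have h5 := hN (BN.ev x w) p.1
  rw [h3, add_assoc, vv, add_zero] at h4
  exact ⟨h4, (N.add_mem_iff_left h4).1 (h2 ▸ h5)⟩

theorem Fr2.dep3 {l : Fin 10 → ℕ → ℕ} {t : Fin 10 → G} (h : Fr2 x l t) {p : V × V}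
    (hp : Wt ρ x (l 0) p) (h0 : p.1 ≠ 0) {N : Submodule (ZMod 2) V} (hd : finrank (ZMod 2) N ≤ 22)
    (hN : ∀ g v, ρ g v + v ∈ N) {c : V} (hc : c ∈ N) (hf : FE ρ x c) {r : G} (hr : r ∈ HH x) :
    ρ r c = c ∨ ρ r (ρ r c) = c ∨ ρ r (ρ r (ρ r c)) = c := by
  have m : ∀ g, ∀ v ∈ N, ρ g v ∈ N := fun g v hv => (N.add_mem_iff_left hv).1 (hN g v)
  have inj : ∀ u v, ρ r u = ρ r v → u = v := fun u v e => by
    by_contra n
    exact ne_zero_map ρ r (sub_ne_zero.2 n) (by rw [map_sub, e, sub_self])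
  by_contra hh
  have h1 : LinearIndependent (ZMod 2) ![c, ρ r c, ρ r (ρ r c)] := by
    rw [Fintype.linearIndependent_iff]
    intro a ha
    have t : (2 : V) = 0 := CharTwo.two_eq_zero
    have h2 := congrArg (ρ r) ha
    have h3 := inj c 0
    have h4 := inj (ρ r c) c
    have h5 := inj (ρ r c) 0
    rcases z2 (a 0) with a0 | a0 <;> rcases z2 (a 1) with a1 | a1 <;> rcases z2 (a 2) with a2 | a2 <;>
      simp only [Fin.sum_univ_three, a0, a1, a2, Matrix.cons_val, zero_smul, one_smul, map_add, map_zero,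
        Fin.forall_fin_succ, Fin.succ_zero_eq_one, Fin.succ_one_eq_two] at ha h2 h3 h5 ⊢ <;> grind
  have h2 := h.ind hp h0 h1 fun k => by
    fin_cases k
    exacts [hf, hf.map hr, (hf.map hr).map hr]
  have h3 := Submodule.finrank_mono (t := N) (Submodule.span_le.2 (show Set.range (Sum.elim
      (fam fun j => lp (ρ (t j)) p) ![c, ρ r c, ρ r (ρ r c)]) ⊆ N by
    rintro _ ⟨(j | j) | j, rfl⟩
    · exact m _ _ (hp.mem (h.nz 0) hN).1
    · exact m _ _ (hp.mem (h.nz 0) hN).2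
    · fin_cases j
      exacts [hc, m _ _ hc, m _ _ (m _ _ hc)]))
  rw [finrank_span_eq_card h2] at h3
  simp at h3
  omega

end Cfsg.Agent.MonL.W3
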