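import Mathlib
import Cfsg.Agent.MonL.Wt2
import Cfsg.Agent.MonL.Shape
import Cfsg.Agent.LES.Baby

/-! Data for the representation of `Co2` of degree 22 over the field with two elements. -/

set_option autoImplicit false

namespace Cfsg.Agent.MonL.W3.C2

open Subgroup Cfsg.Spor Cfsg.Agent.C1M Cfsg.Agent.Comp Cfsg.Agent.Spor.ModelCo1 Cfsg.Agent.LES
  Cfsg.Agent.Spor.Leech Module
open scoped Matrix

/-- the embedding in `Co1` -/
noncomputable def pi2 : Co2 →* Co1 := (QuotientGroup.mk' _).comp co2Incl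

theorem pi2_inj : Function.Injective pi2 := fun _ _ h => co2_mk_injective h

theorem pt0' : pt 0 = fn 0xc75000 := by
  rw [← pls_PL.cd (by norm_num : 0 < 98280), show cd PL 0 = 0xc75000 by decide +kernel]

theorem pt0 : pt 0 = red (toF cU) := by rw [pt0']; decide +kernel

theorem pi2_fix (g : Co2) : rho (pi2 g) *ᵥ pt 0 = pt 0 := by
  rw [pt0]
  change rho0 (co2Incl g) *ᵥ _ = _
  rw [rho0_red, show lin (co2Incl g) (toF cU) = toF cU from
    emb_injective (by rw [emb_lin, emb_cU, co2Incl_u])]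

theorem exists_lift {g : Co1} (h : rho g *ᵥ pt 0 = pt 0) : ∃ a, pi2 a = g := by
  obtain ⟨g, rfl⟩ := QuotientGroup.mk_surjective g
  rw [pt0, rho_mk, rho0_red, red_eq_iff', emb_lin, emb_cU] at h
  obtain ⟨w, hw⟩ := h
  rcases eq_or_neg_of_congr (by rw [sqNorm_smul, sqNorm_leechU]; norm_num)
    (by rw [sqNorm_leechU]; norm_num) hw with e | e
  · obtain ⟨a, rfl⟩ := exists_co2Incl e
    exact ⟨a, rfl⟩
  · obtain ⟨a, ha⟩ := exists_co2Incl (g := negOne * g) (by rw [mul_smul, e, negOne_smul, neg_neg])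
    exact ⟨a, (congrArg QuotientGroup.mk ha).trans (mk_neg_mul g)⟩

theorem fin_Co2 : Finite Co2 := haveI := fin_Co1; Finite.of_injective _ pi2_inj

theorem eq_top_of_X0 {D : Subgroup Co2} (h : ∀ k < 7, X0 (2 * k + 4) ∈ D.map pi2) : D = ⊤ := by
  have h2 : gen ns G_l1.ws ≤ (D.map pi2).map sg := (closure_le _).2 (by
    rintro _ ⟨u, hu, rfl⟩
    obtain ⟨k, hk, rfl⟩ : ∃ k < 7, u = [2 * k + 4] := by revert u; decide
    exact ⟨_, h k hk, by simpa using sg_ev [2 * k + 4]⟩)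
  refine eq_top_iff.2 fun g _ => ?_
  have h3 : sg (pi2 g) 0 = 0 :=
    pt_inj (sg_lt _ (by norm_num)) (by norm_num) (by rw [← rho_pt _ (by norm_num), pi2_fix])
  obtain ⟨_, ⟨a, ha, rfl⟩, e⟩ := h2 (G_st0.stab _ (G_eq.le (pm_mem equiv (pi2 g))) h3)
  exact pi2_inj (pm_inj equiv e) ▸ ha

/-- words for the letters: `0`-`3` generate `3^4`, `6` inverts it, `7`, `8` have order five, `9` conjugates,
`10` is its inverse, `11` is a square root of `6`, `12`, `13` lie in the intersection -/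
def WZ : List (List ℕ) :=
  [[17, 7, 9, 7, 4, 11, 17, 6, 6, 6, 16, 10, 12, 8, 11, 16, 14, 10, 12, 17, 12, 16, 14, 16],
  [5, 11, 14, 8, 4, 11, 11, 12, 6, 10, 13, 9, 16, 10, 14, 12, 17, 14, 17],
  [13, 9, 17, 6, 10, 14, 8, 11, 12, 11, 17, 13, 16, 12, 17],
  [13, 16, 11, 4, 16, 6, 6, 10, 8, 12, 9, 10, 14, 10, 10, 17, 13, 16, 12, 16, 14],
  [],
  [],
  [4, 11, 14, 8, 4, 12, 7, 9, 9, 14, 8, 12, 11, 13, 10, 17, 13, 16, 12],
  [6, 17, 6, 6, 4, 8, 7, 7, 7, 8, 16, 9, 13, 16, 12, 10, 12, 17, 14, 16],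
  [6, 17, 4, 11, 4, 7, 7, 17, 12, 6, 12, 11, 9, 11, 14, 17, 12, 14, 17],
  [17, 4, 10, 5, 16, 7, 14, 6, 6, 13, 11, 17, 8, 13, 16, 10, 14, 13, 17, 14],
  [16, 4, 4, 4, 7, 16, 6, 14, 6, 13, 11, 17, 8, 12, 14, 10, 17, 13, 14, 12, 17],
  [12, 7, 14, 7, 4, 7, 9, 10, 8, 6, 9, 14, 8, 8, 14, 11, 14, 10, 14, 17, 12, 16, 14, 16],
  [12, 5, 14, 4, 7, 8, 7, 13, 17, 12, 8, 11, 11, 13, 10, 17, 12, 17, 14],
  [10, 9, 5, 5, 7, 7, 7, 8, 6, 9, 13, 8, 10, 10, 14, 11, 17, 13, 16, 12]]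

def LZ : List ℕ :=
  [nat_lit 0x50db3980fd10a1d403de78175b42dfa49be9819c00a0dd10cb06bc82942839c7681958094157a8100f30561542311894fabfee85e21810f96c185f8c000fa4dc1014111cbc6ebc42,
  nat_lit 0xdc1325b2742e8715348142fe9be86e8be9453f8a0172cbd44fb047167c8654b53eb1dc124c39d2c101fd5d71d4caa3129cf558cfac629c0420ccf3d1880eaa12a4f2804b273b73e,
  nat_lit 0xc5eb9d867d48143b15b3110ebc019617058f1611900474a60762390277a61794860756275774a2a70086a75421b3462ea12a4f000900b56520a17480b27430e460f0a6322a000001,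
  nat_lit 0xa9448c101930cd85d9dcc7dad58a2bd9d864f22186a050af3fc94f9daaa65176cc01a8325832cf7e3d16b59a6cc1baa681aee97dbaa599f59403852691a2e9c1c9ba839b60f67edc,
  nat_lit 0x800000400000200000100000080000040000020000010000008000004000002000001000000800000400000200000100000080000040000020000010000008000004000002000001,
  nat_lit 0x800000400000200000100000080000040000020000010000008000004000002000001000000800000400000200000100000080000040000020000010000008000004000002000001,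
  nat_lit 0x76838c5a344b45c87b98bf0485b3ebe6cc73e178c6e2a84a15f788e6c5b59de4f8e7097315fa290435bf10540311bfc800f43b1572ef8c7a108c7a2010aec404b13d1132088c7675,
  nat_lit 0xe981de18660f80301483e74e8b635edc8c1be4ff5c39f75e633e815d537318f70e1e375f18ad2e99da799f850f3870b0067174b9d531c67db200027c10d596fed1dc00f6a07729bb,
  nat_lit 0x189b36401576481d7314f285c61f74145af63bd5ea0815b0cee276540ada185dd2747a2607a599a119bde6f4f3a57bbb9b0f6ff7b4583ab111ce948fa6a499a9599be7b0c05ab9,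
  nat_lit 0x900d4c2b4801701f5c59543d78bf9e039a1977cc058574a671f06f8578b9c764c1220c008f019f1969bd0829be686b7608589e305dbc08798e0946018e46dca7066548c9de73bc64,
  nat_lit 0x88dc9c793e5958934cc29c4cb6be1add447b38b91cb296cb92af6a19fc7fb2dc08b3a77bba8ecedab49e401010481a4a406130102c80509fc6fac6e2280fcada4380ee80c8877030,
  nat_lit 0xa3af93dc2df6451860ece522dda26573a1708113afcde26049d941fc8560cea070a35d74038cb0428cb0024052129b2fb92981a2f430258369cd784fd52c840b0362024eb37c7881,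
  nat_lit 0x65ffeda7b3dd8b36a1f575488eb94e8cb3e7eaf1ef8bd7ac27430fafb14d2683ef8f636b6f8cfd6280d80b0e71610858058ff7e87ea9410458238e97e8784887f437448da4e8704b,
  nat_lit 0xc577f9a906b822e9db1a1e1b090437855a45889e17d8072162ef038bb3307915f6ac7d20431cf961bc296ee47969284b0b4bc96baa483947bb488a2928b5b33800492aa49e94eb1]

theorem ml1 : Ml rho LZ (BN.subT X0 WZ) := ml0.sub (by decide +kernel)

theorem fix1 (k : ℕ) : rho (BN.subT X0 WZ k) *ᵥ pt 0 = pt 0 := by
  rw [← fix_iff, ← fn_r0, ← ml1 k]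
  by_cases hk : k < 14
  · have h : allLT 14 (fun k => Nat.beq (vm 0xc74 (getL one LZ k)) 0xc74) = true := by decide +kernel
    rw [← fn_vm, (beq_iff _ _).1 ((allLT_iff _ _).1 h k hk)]
  · rw [getL_eq, List.getD_eq_default _ _ (by change 14 ≤ k; omega), mat_one, Matrix.vecMul_one]

noncomputable def Z (k : ℕ) : Co2 := (exists_lift (fix1 k)).choose

theorem mlZ : Ml (rho.comp pi2) LZ Z := fun k =>
  (ml1 k).trans (congrArg rho (exists_lift (fix1 k)).choose_spec.symm)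

theorem eqZ (u v : List ℕ) (h : eqM LZ u v = true) : BN.ev Z u = BN.ev Z v := mlZ.eq (rho_inj.comp pi2_inj) h

theorem stZ : St Z := by
  have h : allLT 6 (fun i => and' (allLT 6 fun k => eqM LZ [i, k] [k, i])
      (and' (eqM LZ [i, i, i] []) (eqM LZ [i, 6] [6, i, i]))) = true := by decide +kernel
  simp only [allLT_iff, and'_eq_true] at h
  refine ⟨fun i hi k hk => ?_, fun i hi => ?_, ?_, fun i hi => ?_⟩
  · simpa using eqZ _ _ ((h i hi).1 k hk)
  · simpa using eqZ _ _ (h i hi).2.1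
  · simpa using eqZ [6, 6] [] (by decide +kernel)
  · simpa using eqZ _ _ (h i hi).2.2

theorem Z4 : Z 4 = 1 := by simpa using eqZ [4] [] (by decide +kernel)

theorem Z5 : Z 5 = 1 := by simpa using eqZ [5] [] (by decide +kernel)

theorem Z10 : Z 10 = (Z 9)⁻¹ := eq_inv_of_mul_eq_one_right (by simpa using eqZ [9, 10] [] (by decide +kernel))

noncomputable def chkH (u : List ℕ) (W : List (List ℕ)) (w : List ℕ) : Bool :=
  and' (allLT 6 fun i => and' (allL (getL [] W i) (Nat.blt · 6)) (eqM LZ (i :: u) (appendR u (getL [] W i))))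
    (and' (allL w (Nat.blt · 6)) (eqM LZ (appendR u [6]) (6 :: appendR w u)))

theorem of_chkH {u : List ℕ} {W : List (List ℕ)} {w : List ℕ} (h : chkH u W w = true) : BN.ev Z u ∈ HH Z ∧
    ∀ i < 6, L6 (getL [] W i) ∧ Z i * BN.ev Z u = BN.ev Z u * BN.ev Z (getL [] W i) := by
  have := fin_Co2
  simp only [chkH, allLT_iff, and'_eq_true, allL_iff, blt_iff, appendR_eq] at h
  have h1 : ∀ i < 6, L6 (getL [] W i) ∧ Z i * BN.ev Z u = BN.ev Z u * BN.ev Z (getL [] W i) :=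
    fun i hi => ⟨(h.1 i hi).1, by simpa [BN.ev_append] using eqZ _ _ (h.1 i hi).2⟩
  refine ⟨⟨mem_normalizer_EE fun i hi => ⟨_, h1 i hi⟩, ?_⟩, h1⟩
  have e : BN.ev Z u * Z 6 = Z 6 * (BN.ev Z w * BN.ev Z u) := by simpa [BN.ev_append] using eqZ _ _ h.2.2
  rw [mul_assoc _ (BN.ev Z u), e, inv_mul_cancel_left, mul_inv_cancel_right]
  exact ev_mem_EE h.2.1

def HL : List (List ℕ × List (List ℕ) × List ℕ) :=
  [([7], [[0, 0, 1, 1, 3, 3], [0, 0, 3, 3], [0, 0, 1, 1, 2, 2, 3, 3], [1, 2, 2, 3], [], []], [0, 0, 1]),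
  ([8], [[3], [2, 3], [0, 0, 1, 3], [1, 3, 3], [], []], [0, 0, 1, 2, 2]),
  ([11], [[0, 0, 1, 1, 3, 3], [1, 1, 2], [1, 2], [0, 0, 1, 1, 2, 2, 3], [], []], []),
  ([9, 9], [[0], [0, 1, 1], [0, 0, 2, 2], [1, 2, 3], [], []], []),
  ([10, 0, 9], [[0], [1], [2], [3], [], []], [0]),
  ([10, 1, 9], [[0], [1], [0, 0, 2], [0, 0, 2, 2, 3], [], []], [0, 0, 1, 2, 2]),
  ([10, 2, 9], [[0], [0, 0, 1], [0, 2], [0, 0, 1, 1, 2, 3], [], []], [0, 2, 2]),
  ([12], [[0, 0], [1, 2], [0, 0, 1, 2, 2], [1, 2, 3], [], []], [0, 1]),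
  ([10, 12, 9], [[0, 0], [0, 0, 2], [1, 1], [0, 0, 1, 1, 3, 3], [], []], [0, 1, 2]),
  ([9, 12, 10], [[0, 0], [0, 2], [0, 0, 1, 1], [0, 1, 2, 3, 3], [], []], [0, 1, 1, 2, 2]),
  ([13], [[0, 0], [0, 2], [0, 1, 1], [0, 2, 3, 3], [], []], [0, 1, 1]),
  ([10, 13, 9], [[0, 0], [1, 2], [1, 2, 2], [0, 0, 2, 2, 3], [], []], [0, 2, 2]),
  ([9, 13, 10], [[0, 0], [0, 0, 1, 2], [0, 0, 1, 2, 2], [0, 0, 1, 1, 2, 2, 3], [], []], [0, 0, 2])]

theorem hh (u : List ℕ) (h : u ∈ HL.map Prod.fst := by decide) : BN.ev Z u ∈ HH Z := by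
  have c : allL HL (fun e => chkH e.1 e.2.1 e.2.2) = true := by decide +kernel
  obtain ⟨e, he, rfl⟩ := List.mem_map.1 h
  exact (of_chkH ((allL_iff _ _).1 c e he)).1

def Wa : List (List ℕ) := [[0, 0, 1, 1, 3, 3], [0, 0, 3, 3], [0, 0, 1, 1, 2, 2, 3, 3], [1, 2, 2, 3], [], []]

def Wb : List (List ℕ) := [[3], [2, 3], [0, 0, 1, 3], [1, 3, 3], [], []]

noncomputable def act (k n : ℕ) : ℕ :=
  code fun i => lw (dg n) (getL [] (Nat.rec (motive := fun _ => List (List ℕ)) Wa (fun _ _ => Wb) k) i)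

noncomputable def lt (k : ℕ) : ℕ := Nat.rec (motive := fun _ => ℕ) 7 (fun _ _ => 8) k

theorem mv_act (k n : ℕ) : BN.ev Z [lt k] ∈ HH Z ∧ Mv Z (BN.ev Z [lt k]) (dg n) (dg (act k n)) := by
  have c7 := of_chkH (u := [7]) (W := Wa) (w := [0, 0, 1]) (by decide +kernel)
  have c8 := of_chkH (u := [8]) (W := Wb) (w := [0, 0, 1, 2, 2]) (by decide +kernel)
  cases k with
  | zero => exact ⟨c7.1, mv_of fun i hi => ⟨_, (c7.2 i hi).1, (c7.2 i hi).2, dg_code _ hi⟩⟩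
  | succ k => exact ⟨c8.1, mv_of fun i hi => ⟨_, (c8.2 i hi).1, (c8.2 i hi).2, dg_code _ hi⟩⟩

noncomputable def run (w : List ℕ) (n : ℕ) : ℕ :=
  List.rec (motive := fun _ => ℕ) n (fun k _ ih => force ih (act k)) w

noncomputable def tw (w : List ℕ) : Co2 := BN.ev Z (mapR lt w)

theorem mv_run (w : List ℕ) (n : ℕ) : tw w ∈ HH Z ∧ Mv Z (tw w) (dg n) (dg (run w n)) := by
  induction w with
  | nil => exact ⟨one_mem _, fun ρ p hp => by rw [show tw [] = 1 from rfl, map_one]; exact hp⟩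
  | cons k w ih =>
    have e : tw (k :: w) = BN.ev Z [lt k] * tw w := by simp [tw, mapR_eq]
    have e' : run (k :: w) n = act k (run w n) := force_eq _ _
    rw [e, e']
    exact ⟨mul_mem (mv_act k n).1 ih.1, ih.2.mul (mv_act k _).2⟩

def Has (ρ : Co2 →* EV) (n : ℕ) : Prop := ∃ p, Wt ρ Z (dg n) p ∧ p.1 ≠ 0

theorem Has.run {ρ : Co2 →* EV} {n : ℕ} (h : Has ρ n) (w : List ℕ) : Has ρ (run w n) := by
  obtain ⟨p, hp, h0⟩ := h
  exact ⟨_, (mv_run w n).2 ρ p hp, ne_zero_map ρ _ h0⟩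

noncomputable def chkF (r m : ℕ) (C : List ℕ) (P : List (List ℕ)) : Bool :=
  allLT m fun j => and' (Nat.beq (run (getL [] P j) r) (getL 0 C j)) (allLT m fun k => or' (Nat.beq j k)
    (not' (allLT 6 fun a => allLT 6 fun b =>
      Nat.beq (dg (getL 0 C j) a * dg (getL 0 C k) b % 3) (dg (getL 0 C j) b * dg (getL 0 C k) a % 3))))

theorem of_chkF {r m : ℕ} {C : List ℕ} {P : List (List ℕ)} (h : chkF r m C P = true) :
    (∀ j < m, run (getL [] P j) r = getL 0 C j) ∧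
      Pairwise fun j k : Fin m => NP (dg (getL 0 C j)) (dg (getL 0 C k)) := by
  simp only [chkF, allLT_iff, and'_eq_true, or'_eq_true, not'_eq_true, beq_iff] at h
  refine ⟨fun j hj => (h j hj).1, fun j k n => ?_⟩
  have := ((h j j.2).2 k k.2).resolve_left fun e => n (Fin.ext e)
  push Not at this
  exact this

theorem not_has {ρ : Co2 →* EV} {r : ℕ} {C : List ℕ} {P : List (List ℕ)} (h : chkF r 13 C P = true) :
    ¬ Has ρ r := fun hr => by
  obtain ⟨h1, h2⟩ := of_chkF h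
  choose p hp h0 using fun j : Fin 13 => h1 j j.2 ▸ hr.run (getL [] P j)
  have := card_le hp h2 (fun j => by obtain ⟨k, hk⟩ := exists_ne j; exact (h2 hk.symm).nz) h0
  simp at this

def CJ : List ℕ := [27, 53, 46, 37, 76, 55, 4, 61, 77, 52]

def TW : List (List ℕ) := [[], [0], [0, 0], [1, 0], [0, 0, 0], [1, 0, 0], [0, 1, 0], [1, 1, 0], [1, 0, 0, 0], [0, 1, 0, 0, 0]]

theorem cls {ρ : Co2 →* EV} {m : ℕ → ℕ} {q : V × V} (h : Wt ρ Z m q) (h0 : q.1 ≠ 0) (hm : NZ m) :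
    Has ρ 27 ∧ ∃ j : Fin 10, (∀ i < 6, dg (getL 0 CJ j) i % 3 = m i % 3) ∨
      ∀ i < 6, 2 * dg (getL 0 CJ j) i % 3 = m i % 3 := by
  have c : allLT 81 (fun n => or' (Nat.beq n 0) (force (run (getL [] [[], [], [1, 1, 0, 1], [0, 1, 1], [1], [0, 0, 0], [1, 1, 1], [1, 0, 0], [1, 1, 0, 0, 0], [1, 1, 0], [], [1, 0, 0, 0], [1, 1, 0, 1], [0, 0, 1], [0, 0, 1, 1], [1, 0, 0, 1, 0], [0, 1, 1, 1], [1, 0, 0, 1, 0], [0, 1, 0], [0, 0], [1, 0], [0, 1, 0], [1, 1, 1, 0, 1], [0, 1, 1, 0], [0, 0, 0], [0, 0, 1, 1, 0, 1], [1, 0, 1], [], [1, 0, 0, 1], [0], [0, 0], [0, 0, 1, 1], [1, 1], [1, 1, 1, 0], [1, 1], [0], [0, 1], [1, 0], [0, 1, 0, 0], [1, 1, 0], [0, 0, 1, 0], [1, 0, 0, 1], [1, 1, 1], [1, 1, 0, 1], [1, 1, 0, 1, 1], [1, 0, 1, 1, 0], [0, 0, 0], [1, 1, 0, 0, 1], [0, 0, 1], [1], [1], [1, 1, 1, 0], [1, 1, 0], [1, 0, 1], [1, 0, 1, 1], [1, 0, 1, 1, 0], [0, 1], [0, 1, 1, 0], [1, 0, 0], [1, 0, 1, 1], [1, 0], [1, 0, 0], [1, 0,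 1, 1], [0, 0, 1, 1, 0], [0, 1, 0, 0, 1], [0, 1], [0, 1, 1], [0, 1, 0], [0, 1, 1], [0, 0, 1, 1, 0], [0], [1, 0, 1], [1, 1], [1, 1, 0, 0], [1, 1, 1], [1, 1, 0, 0], [0, 0], [1, 1, 0, 0], [0, 0, 1, 1, 1], [0, 0, 0, 1], [0, 1, 1, 0, 1]] n) n) fun r =>
      or' (and' (Nat.beq r 27) (anyLT 10 fun j => or'
        (allLT 6 fun i => Nat.beq (dg (getL 0 CJ j) i % 3) (dg n i % 3))
        (allLT 6 fun i => Nat.beq (2 * dg (getL 0 CJ j) i % 3) (dg n i % 3))))
      (or' (Nat.beq r 1) (Nat.beq r 10)))) = true := by decide +kernel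
  simp only [allLT_iff, anyLT_iff, or'_eq_true, force_eq, and'_eq_true, beq_iff] at c
  have h4 := h.mod_of_fix hm h0 ((h 4 (by norm_num)).symm.trans (by rw [Z4, map_one]; rfl))
  have h5 := h.mod_of_fix hm h0 ((h 5 (by norm_num)).symm.trans (by rw [Z5, map_one]; rfl))
  have hs : Has ρ (code m) := ⟨q, h.congr fun i hi => dg_code m hi, h0⟩
  rcases c (code m) (by rw [code]; omega) with e | ⟨e, j, hj, e'⟩ | e | e
  · obtain ⟨i, hi, n⟩ := hm
    exact absurd (by rw [← dg_code m hi, e]; simp [dg]) n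
  · refine ⟨e ▸ hs.run _, ⟨j, hj⟩, e'.imp (fun a i hi => ?_) fun a i hi => ?_⟩ <;>
      exact (a i hi).trans (dg_code m hi)
  · exact absurd (e ▸ hs.run _) (not_has (C := [1, 26, 18, 5, 60, 36, 6, 45, 50, 17, 64, 62, 41])
      (P := [[], [0], [1], [0, 0], [1, 0], [0, 1], [1, 1], [1, 0, 0], [0, 1, 0], [1, 1, 0], [0, 1, 1], [0, 1, 0, 0], [0, 1, 1, 0]]) (by decide +kernel))
  · exact absurd (e ▸ hs.run _) (not_has (C := [10, 71, 21, 24, 56, 42, 19, 78, 80, 35, 34, 14, 69])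
      (P := [[], [0], [1], [0, 0], [0, 1], [1, 1], [0, 0, 0], [1, 0, 0], [0, 0, 1], [1, 0, 1], [1, 1, 1], [1, 1, 0, 0], [0, 0, 0, 1]]) (by decide +kernel))

theorem frZ : Fr2 Z (fun j => dg (getL 0 CJ j)) fun j => tw (getL [] TW j) := by
  obtain ⟨h1, h2⟩ := of_chkF (r := 27) (m := 10) (C := CJ) (P := TW) (by decide +kernel)
  exact ⟨stZ, fun j => (mv_run _ 0).1, fun j => h1 j j.2 ▸ (mv_run _ 27).2, h2, rfl,
    fun _ _ _ h h0 hm => (cls h h0 hm).2⟩

theorem Z0_ne : Z 0 ≠ 1 := by simpa using mlZ.ne (u := [0]) (v := []) (by decide +kernel)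

theorem top_of {D : Subgroup Co2} (h7 : Z 7 ∈ D) (h8 : Z 8 ∈ D) (h9 : Z 9 ∈ D) (h6 : Z 6 ∈ D) : D = ⊤ := by
  have d1 : ∀ k, Z k ∈ D → InD (D.map pi2) (getL one LZ k) := fun k hk => ⟨_, ⟨_, hk, rfl⟩, mlZ k⟩
  have c : frc (slp [[0, 0, 0, 0],
  [1, 1, 1, 1],
  [2, 2, 2],
  [2, 0, 5, 3, 0, 5, 5, 2, 1],
  [5, 6, 1, 1, 4, 3, 1, 4, 6],
  [4, 1, 3, 6, 1, 4, 1, 6, 4, 3, 4, 5],
  [1, 0, 3, 0, 2, 5, 0, 5, 2, 3, 5, 0],
  [9, 8, 8, 10, 10, 9, 9, 8, 10, 7, 10],
  [9, 8, 9, 7, 10, 10, 9, 9, 7, 7, 10],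
  [8, 10, 10, 7, 10, 8, 10, 7],
  [8, 9, 7, 9, 8, 9, 9, 7],
  [12, 14, 14, 11, 11, 12, 12, 11],
  [14, 14, 11, 12],
  [11, 14, 11, 14, 12, 13, 13, 13, 11, 13, 11, 13],
  [14, 12, 14, 12, 14, 14, 14, 11, 13, 12, 13, 12],
  [14, 14, 14, 13, 12, 11],
  [18, 16, 19, 19, 18, 18, 16],
  [15, 19, 19],
  [18, 15, 18, 18, 15, 16, 17],
  [18, 16, 15, 17, 17, 15, 17],
  [16, 17, 19, 18, 15, 15, 19, 15],
  [15, 19, 15, 15, 17, 19, 18, 16],
  [21, 22, 20, 25, 24, 25, 22, 20],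
  [20, 23, 24, 25, 24, 20, 23, 21],
  [25, 24, 23, 22, 20],
  [28, 26, 26, 27, 28, 27, 27, 28],
  [28, 26, 26, 28, 26, 27, 27, 28],
  [28, 26, 26, 28, 28, 26, 28, 27],
  [26, 28, 27, 28, 28, 27, 27, 28]]
      [getL one LZ 7, getL one LZ 8, getL one LZ 9, getL one LZ 6]) (fun L => allLT 7 fun k =>
      Nat.beq (evM L (getL [] [[3, 2, 3, 2, 0, 8, 8, 9, 7, 10, 7, 9, 12, 14, 12, 13, 11, 13, 16, 15, 18, 16, 17, 26, 28, 29],
  [9, 8, 9, 7, 7, 7, 11, 15, 17, 15, 17, 22, 27, 28],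
  [11, 13, 11, 14, 11, 13, 11, 18, 15, 18, 16, 20, 23, 26, 28, 30],
  [16, 15, 17, 17, 16, 22],
  [22, 28, 29],
  [26, 28, 29],
  [30]] k)) (getL one L0 (2 * k + 4))) = true := by decide +kernel
  rw [frc_eq, allLT_iff] at c
  have c2 := InD.slp (D := D.map pi2) (L := [getL one LZ 7, getL one LZ 8, getL one LZ 9, getL one LZ 6]) (h := by
    simp only [List.mem_cons, List.not_mem_nil, or_false, forall_eq_or_imp, forall_eq]
    exact ⟨d1 7 h7, d1 8 h8, d1 9 h9, d1 6 h6⟩)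
  refine eq_top_of_X0 fun k hk => ?_
  have h1 := c k hk
  rw [beq_iff] at h1
  have h2 : InD (D.map pi2) (getL one L0 (2 * k + 4)) := by rw [← h1]; exact InD.evM (c2 _) _
  obtain ⟨g, hg, e⟩ := h2
  rw [ml0] at e
  exact rho_inj e ▸ hg

/-- the standard representation -/
noncomputable def s2 : Co2 →* EV := r0.comp pi2

theorem s2_apply (g : Co2) (v : V) : s2 g v = rho (pi2 g) *ᵥ v := r0_apply _ _

/-- the first column -/
noncomputable def cv (A : ℕ) : V := mat A *ᵥ Pi.single 0 1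

theorem cv_mm (A B : ℕ) : cv (mm A B) = mat A *ᵥ cv B := by rw [cv, mat_mm, cv, Matrix.mulVec_mulVec]

theorem cv_xor (A B : ℕ) : cv (Nat.xor A B) = cv A + cv B := by rw [cv, mat_xor, Matrix.add_mulVec]; rfl

noncomputable def ap (u : List ℕ) (A B : ℕ) : Bool := Nat.beq (mm (evM LZ u) A) B

theorem of_ap (u : List ℕ) {A B : ℕ} (h : ap u A B = true) : s2 (BN.ev Z u) (cv A) = cv B := by
  rw [← (beq_iff _ _).1 h, cv_mm, mlZ.evM, s2_apply]; rfl

theorem of_ap1 {k A B : ℕ} (h : ap [k] A B = true) : s2 (Z k) (cv A) = cv B := by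
  rw [← of_ap _ h, BN.ev_cons, BN.ev_nil, mul_one]

def U0 : ℕ := nat_lit 0x1000001000001000000000001000000000001000001000001000001000001000000000001000001000001000000000001000001000001000001000000000001000001000000

def U1 : ℕ := nat_lit 0x1000001000001000000000000000000000001000000000001000001000001000000000000000001000001000000000001000000000001000000000000000000000001

def UB : ℕ := nat_lit 0x1000001000000000000000000000001000001000001000000000001000000000001000000000000000000000000000000000000000000000000000000000000000000000000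

def V0 : ℕ := nat_lit 0x1000000000001000000000001000001000000000001000001000001000000000001000000000001000001000000000000000001000001

theorem cv_UB : cv UB = pt 0 := by rw [pt0']; decide +kernel

theorem wt0 : Wt s2 Z (dg 27) (cv U0, cv U1) := fun i hi => by
  have c : allLT 6 (fun i => ite' (Nat.beq i 3) (and' (ap [i] U0 U1) (ap [i] U1 (Nat.xor U0 U1)))
      (and' (ap [i] U0 U0) (ap [i] U1 U1))) = true := by decide +kernel
  have h := (allLT_iff _ _).1 c i hi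
  rw [ite'_eq] at h
  split_ifs at h with e <;> rw [and'_eq_true] at h <;> rw [beq_iff] at e
  · subst e
    rw [show dg 27 3 = 1 from rfl, Function.iterate_one, lp, om, of_ap1 h.1, of_ap1 h.2, cv_xor]
  · rw [show dg 27 i = 0 by interval_cases i <;> first | rfl | contradiction, lp, of_ap1 h.1, of_ap1 h.2]
    rfl

/-- the vectors orthogonal to the fixed vector -/
noncomputable def N0 : Submodule (ZMod 2) V where
  carrier := {v | fn 0xc74 ⬝ᵥ v = 0}
  zero_mem' := dotProduct_zero _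
  add_mem' := fun {a b} ha hb => by
    change _ = _ at ha hb ⊢
    rw [dotProduct_add, ha, hb, add_zero]
  smul_mem' := fun c a ha => by
    change _ = _ at ha ⊢
    rw [dotProduct_smul, ha, smul_zero]

theorem N0_map (g : Co2) {v : V} (h : v ∈ N0) : s2 g v ∈ N0 := by
  change _ = _ at h ⊢
  rw [s2_apply, Matrix.dotProduct_mulVec, fn_r0, (fix_iff _ _).2 (pi2_fix g), ← fn_r0, h]

theorem N0_cv {A : ℕ} (h : vm 0xc74 A = 0) : cv A ∈ N0 := by
  change _ = _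
  rw [cv, Matrix.dotProduct_mulVec, ← fn_vm, h, fn_zero, zero_dotProduct]

theorem N0_lt : finrank (ZMod 2) N0 < 24 := by
  have := Submodule.finrank_lt (s := N0) fun e => by
    have : fn 0xc74 ⬝ᵥ fn 4 = 0 := e.ge Submodule.mem_top
    exact absurd this (by decide +kernel)
  simpa using this

noncomputable def sl (i : ℕ) : ℕ := Nat.shiftLeft 1 (24 * i)

theorem cv_sl (i : Fin 24) : cv (sl i) = Pi.single i 1 := by
  revert i; decide +kernel

theorem extB {R Ri : ℕ} (h : mm R Ri = one) (h' : row Ri 23 = 0xc74) {f g : EV}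
    (e : ∀ i < 23, f (cv (mm R (sl i))) = g (cv (mm R (sl i)))) {v : V} (hv : v ∈ N0) : f v = g v := by
  have h1 : v = ∑ i : Fin 24, (mat Ri *ᵥ v) i • cv (mm R (sl i)) := by
    simp only [cv_mm, cv_sl, ← Matrix.mulVec_smul, ← Matrix.mulVec_sum]
    rw [← pi_eq_sum_univ', Matrix.mulVec_mulVec, ← mat_mm, h, mat_one, Matrix.one_mulVec]
  rw [h1, map_sum, map_sum]
  refine Finset.sum_congr rfl fun i _ => ?_
  rw [map_smul, map_smul]
  by_cases hi : (i : ℕ) < 23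
  · rw [e i hi]
  · obtain rfl : i = 23 := Fin.ext (by have := i.2; change _ = 23; omega)
    have : (mat Ri *ᵥ v) 23 = 0 := by
      change mat Ri 23 ⬝ᵥ v = 0
      rw [← fn_row]
      exact h' ▸ hv
    rw [this, zero_smul, zero_smul]

def BM : ℕ := nat_lit 0x71e17f472c130f1e312bd43202a8af6642e85aa8995557dd28aac747d4631257ad6385160808c13f53192a85410894863d02bf0084471a430f13eff7072bd6be73672b533f3084c0

def BI : ℕ := nat_lit 0xc746e5b526e4babf9336b712f7114b0a9eed2518e9efa18a32213f3ba509e881196a8119fe8889b33c2c9f915833314b73013f7e009b03801c08821b8aa11323af505c267f849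

noncomputable def kw (i : ℕ) : List ℕ :=
  if i < 10 then mapR lt (getL [] TW i) else if i < 20 then appendR (mapR lt (getL [] TW (i - 10))) [3]
  else if i = 20 then [9] else [9, 3]

theorem col_BM {i : ℕ} (hi : i < 22) : cv (mm BM (sl i)) = s2 (BN.ev Z (kw i)) (cv U0) := by
  have c : allLT 22 (fun i => ap (kw i) U0 (mm BM (sl i))) = true := by decide +kernel
  exact (of_ap _ ((allLT_iff _ _).1 c i hi)).symm

theorem col_BM' : cv (mm BM (sl 22)) = pt 0 := by rw [← cv_UB, show mm BM (sl 22) = UB by decide +kernel]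

theorem null_one {v : V} (h : s2 (Z 13) v + v + s2 (Z 12) v = 0) : v = v 0 • cv V0 := by
  have c : Nat.xor (mm (nat_lit 0x5bfdcf4fc27a5f28205898c97a75e331f09c7d04ec1aa4366c03be154e6809b1210cf30c45c56734427a6b49390d7f107f275331b3231e86084a065916f7d414b81b09cbcb000000)
      (Nat.xor (Nat.xor (getL one LZ 13) one) (getL one LZ 12))) (mm V0 1) = one := by decide +kernel
  generalize nat_lit 0x5bfdcf4fc27a5f28205898c97a75e331f09c7d04ec1aa4366c03be154e6809b1210cf30c45c56734427a6b49390d7f107f275331b3231e86084a065916f7d414b81b09cbcb000000 = X at c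
  have c1 : mat (Nat.xor (mm X (Nat.xor (Nat.xor (getL one LZ 13) one) (getL one LZ 12))) (mm V0 1)) *ᵥ v =
      mat one *ᵥ v := by rw [c]
  rw [s2_apply, s2_apply] at h
  rw [mat_xor, mat_mm, mat_mm, mat_xor, mat_xor, mat_one, mlZ, mlZ, Matrix.add_mulVec, ← Matrix.mulVec_mulVec,
    ← Matrix.mulVec_mulVec, Matrix.add_mulVec, Matrix.add_mulVec, Matrix.one_mulVec, MonoidHom.comp_apply,
    MonoidHom.comp_apply, h, Matrix.mulVec_zero, zero_add] at c1
  have c2 : mat 1 = Matrix.single 0 0 1 := by decide +kernel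
  have c3 : mat 1 *ᵥ v = v 0 • Pi.single 0 1 := by
    rw [c2, Matrix.single_mulVec, one_mul]
    funext i
    by_cases hi : i = 0 <;> simp [hi]
  rw [c3, Matrix.mulVec_smul] at c1
  exact c1.symm

def RM : ℕ := nat_lit 0x76ae784f52820f19aa28f54205dffc6197935640c45f4e65246e644eef951f0f2968b20804ee993402cd2c635b0a81d63436690f484c177a2b1efe1901c98eb6202a27a45f3b8191

theorem col_RM {i : ℕ} (hi : i < 23) : ∀ c, c = cv (mm RM (sl i)) →
    (∃ u, (∀ k ∈ u, k = 12 ∨ k = 13) ∧ c = s2 (BN.ev Z u) (cv V0)) ∨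
      (∃ u ∈ [[], [3], [9], [9, 3]], c = s2 (BN.ev Z u) (cv U0)) ∨ c = pt 0 := by
  have c : allLT 23 (fun i => force (mm RM (sl i)) fun c =>
      or' (anyL [[], [12], [12, 12], [13, 12], [12, 12, 12], [13, 12, 12], [12, 13, 12], [13, 13, 12], [13, 12, 12, 12], [12, 13, 12, 12], [13, 13, 12, 12], [12, 12, 13, 12], [13, 12, 13, 12], [12, 13, 13, 12], [12, 13, 12, 12, 12], [13, 13, 12, 12, 12], [13, 12, 13, 12, 12], [13, 13, 13, 12, 12]] fun u =>
        and' (allL u fun k => or' (Nat.beq k 12) (Nat.beq k 13)) (ap u V0 c))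
      (or' (anyL [[], [3], [9], [9, 3]] fun u => ap u U0 c) (Nat.beq c UB))) = true := by decide +kernel
  simp only [allLT_iff, force_eq, or'_eq_true, and'_eq_true, anyL_iff, allL_iff, beq_iff] at c
  rintro _ rfl
  rcases c i hi with ⟨u, -, h1, h2⟩ | ⟨u, h1, h2⟩ | h
  exacts [Or.inl ⟨u, h1, (of_ap u h2).symm⟩, Or.inr (Or.inl ⟨u, h1, (of_ap u h2).symm⟩),
    Or.inr (Or.inr (by rw [h, cv_UB]))]

theorem ext_R {f g : EV} (h1 : ∀ u, (∀ k ∈ u, k = 12 ∨ k = 13) →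
      f (s2 (BN.ev Z u) (cv V0)) = g (s2 (BN.ev Z u) (cv V0)))
    (h2 : ∀ u ∈ [[], [3], [9], [9, 3]], f (s2 (BN.ev Z u) (cv U0)) = g (s2 (BN.ev Z u) (cv U0)))
    (h3 : f (pt 0) = g (pt 0)) {v : V} (hv : v ∈ N0) : f v = g v := by
  refine extB (R := RM) (Ri := nat_lit 0xc746e5b526e4babf9336b889b3367f84983b652e6dddbbe90fbcabe11ce57a36844a3e6f5a86cfa501791b10386499a52b9c0fb70b18e9386c8fb878980e131fa8b6a1bdb048b) (by decide +kernel) (by decide +kernel) (fun i hi => ?_) hv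
  rcases col_RM hi _ rfl with ⟨u, a, e⟩ | ⟨u, a, e⟩ | e <;> rw [e]
  exacts [h1 u a, h2 u a, h3]

end Cfsg.Agent.MonL.W3.C2
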