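import Mathlib
import Cfsg.Agent.MonL.Dat22

/-! Every faithful representation of `Co2` of degree 22 over the field with two elements is the section
of the Leech lattice modulo two. -/

set_option autoImplicit false

namespace Cfsg.Agent.MonL.W3.C2

open Subgroup Cfsg.Spor Cfsg.Agent.C1M Cfsg.Agent.Comp Module
open scoped Matrix

attribute [local irreducible] Z cv pt mm s2

variable {ρ : Co2 →* EV} {N : Submodule (ZMod 2) V} {p : V × V} {T : EV}

theorem sec (hp : Wt ρ Z (dg 27) p) : ρ (Z 3) p.1 = p.2 ∧ ρ (Z 3) p.2 = p.1 + p.2 :=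
  Prod.ext_iff.1 (hp 3 (by norm_num))

theorem nz27 : NZ (dg 27) := frZ.nz 0

theorem U0_ne : cv U0 ≠ 0 := by decide +kernel

theorem s2_pt (g : Co2) : s2 g (pt 0) = pt 0 := by rw [s2_apply, pi2_fix]

theorem N0_U0 : cv U0 ∈ N0 := N0_cv (by decide +kernel)

theorem N0_U1 : cv U1 ∈ N0 := N0_cv (by decide +kernel)

theorem cj (ρ : Co2 →* EV) (k : ℕ) (v : V) : ρ (Z k) (ρ (Z 9) v) = ρ (Z 9) (ρ (BN.ev Z [10, k, 9]) v) := by
  rw [← rho_mul, ← rho_mul, BN.ev_cons, BN.ev_cons, BN.ev_cons, BN.ev_nil, Z10, mul_inv_cancel_left, mul_one]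

theorem split3 {n : V} (h : ∀ i < 3, ρ (Z i) n = n) :
    ∃ w, FE ρ Z (n + w) ∧ Wt ρ Z (dg 27) (w, ρ (Z 3) w) := by
  have c : ∀ v, ρ (Z 3) (ρ (Z 3) (ρ (Z 3) v)) = v := fun v => by
    rw [← rho_mul, ← rho_mul, mul_assoc, stZ.cube 3 (by norm_num), map_one]; rfl
  have m : ∀ i < 6, ∀ v, ρ (Z i) (ρ (Z 3) v) = ρ (Z 3) (ρ (Z i) v) := fun i hi v => by
    rw [← rho_mul, ← rho_mul, stZ.comm i hi 3 (by norm_num)]
  have h' : ∀ i < 6, i ≠ 3 → ρ (Z i) n = n := fun i hi e => by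
    interval_cases i
    exacts [h 0 (by norm_num), h 1 (by norm_num), h 2 (by norm_num), absurd rfl e, by simp [Z4], by simp [Z5]]
  have t : (2 : V) = 0 := CharTwo.two_eq_zero
  refine ⟨ρ (Z 3) n + ρ (Z 3) (ρ (Z 3) n), fun i hi => ?_, fun i hi => ?_⟩ <;> by_cases e : i = 3
  · subst e
    simp only [map_add, c]; grind
  · simp only [map_add, m i hi, h' i hi e]
  · subst e
    rw [show dg 27 3 = 1 from rfl]
    simp only [Function.iterate_one, lp, om, map_add, c, Prod.mk.injEq, true_and]; grind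
  · rw [show dg 27 i = 0 by interval_cases i <;> first | rfl | contradiction]
    simp only [lp, map_add, m i hi, h' i hi e]; rfl

/-- the candidate for the isomorphism -/
structure Dt (ρ : Co2 →* EV) (N : Submodule (ZMod 2) V) (p : V × V) (T : EV) : Prop where
  hd : finrank (ZMod 2) N ≤ 22
  hN : ∀ g v, ρ g v + v ∈ N
  hp : Wt ρ Z (dg 27) p
  h0 : p.1 ≠ 0
  h6 : ρ (Z 6) p.1 = p.1
  hT : ∀ i < 22, T (s2 (BN.ev Z (kw i)) (cv U0)) = ρ (BN.ev Z (kw i)) p.1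
  ub : T (pt 0) = 0
  mem : ∀ v, T v ∈ N

theorem exists_Dt (h : ρ (Z 0) ≠ 1) (hd : finrank (ZMod 2) N ≤ 22) (hN : ∀ g v, ρ g v + v ∈ N) :
    ∃ p T, Dt ρ N p T := by
  obtain ⟨l, q, hq, q0, nz⟩ := stZ.exists_wt h
  obtain ⟨q, hq, q0⟩ := (cls hq q0 nz).1
  obtain ⟨p, hp, h0, h6⟩ := frZ.exists_norm hq q0
  let im : Fin 24 → V := fun i => if (i : ℕ) < 22 then ρ (BN.ev Z (kw i)) p.1 else 0
  have e : ∀ i : Fin 24, (Fintype.linearCombination (ZMod 2) im ∘ₗ Matrix.toLin' (mat BI))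
      (cv (mm BM (sl i))) = im i := fun i => by
    rw [LinearMap.comp_apply, Matrix.toLin'_apply, cv_mm, Matrix.mulVec_mulVec, ← mat_mm,
      show mm BI BM = one by decide +kernel, mat_one, Matrix.one_mulVec, cv_sl,
      Fintype.linearCombination_apply_single, one_smul]
  refine ⟨p, _, hd, hN, hp, h0, h6, fun i hi => ?_, col_BM' ▸ e 22, fun v => ?_⟩
  · rw [← col_BM hi]
    exact (e ⟨i, by omega⟩).trans (if_pos hi)
  · rw [LinearMap.comp_apply, Fintype.linearCombination_apply]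
    refine sum_mem fun i _ => N.smul_mem _ ?_
    simp only [im]
    split_ifs
    exacts [(N.add_mem_iff_left (hp.mem nz27 hN).1).1 (hN _ _), zero_mem _]

/-- the intertwined elements -/
def itw (ρ : Co2 →* EV) (T : EV) : Subgroup Co2 where
  carrier := {g | ∀ v ∈ N0, T (s2 g v) = ρ g (T v)}
  one_mem' := fun v _ => by simp
  mul_mem' := fun {a b} ha hb v hv => by rw [rho_mul, rho_mul, ha _ (N0_map b hv), hb v hv]
  inv_mem' := fun {a} ha v hv => by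
    have h1 := congrArg (ρ a⁻¹) (ha _ (N0_map a⁻¹ hv))
    rw [← rho_mul s2, mul_inv_cancel, map_one, ← rho_mul ρ, inv_mul_cancel, map_one] at h1
    exact h1.symm

theorem kw_mem {i : ℕ} (hi : i < 20) : BN.ev Z (kw i) ∈ HH Z := by
  have := fin_Co2
  rw [kw]
  split_ifs
  · exact (mv_run _ 0).1
  · rw [appendR_eq, BN.ev_append]
    exact mul_mem (mv_run _ 0).1 (stZ.EE_le (ev_mem_EE (by simp [L6])))

namespace Dt

variable (d : Dt ρ N p T)
include d

theorem map (g : Co2) {v : V} (h : v ∈ N) : ρ g v ∈ N := (N.add_mem_iff_left h).1 (d.hN g v)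

theorem st {k : Co2} (hk : k ∈ HH Z) : T (s2 k (cv U0)) = ρ k p.1 ∧ T (s2 k (cv U1)) = ρ k p.2 := by
  have := fin_Co2
  refine Prod.ext_iff.1 (frZ.star wt0 U0_ne (of_ap1 (by decide +kernel)) d.hp d.h0 d.h6 (T := T)
    (fun j => Prod.ext ?_ ?_) hk)
  · have := d.hT j (by omega)
    rwa [kw, if_pos j.2] at this
  · have := d.hT (j + 10) (by omega)
    rwa [kw, if_neg (by omega), if_pos (by omega), Nat.add_sub_cancel, appendR_eq, BN.ev_append, rho_mul,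
      rho_mul, BN.ev_cons, BN.ev_nil, mul_one, (sec wt0).1, (sec d.hp).1] at this

theorem T0 : T (cv U0) = p.1 := by simpa using (d.st (one_mem _)).1

theorem T1 : T (cv U1) = p.2 := by simpa using (d.st (one_mem _)).2

theorem g0 : T (s2 (Z 9) (cv U0)) = ρ (Z 9) p.1 := by simpa [kw] using d.hT 20 (by norm_num)

theorem g1 : T (s2 (Z 9) (cv U1)) = ρ (Z 9) p.2 := by
  simpa [kw, -map_mul, rho_mul, (sec wt0).1, (sec d.hp).1] using d.hT 21 (by norm_num)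

theorem fx (u : List ℕ) (h : and' (ap u U0 U0) (ap u U1 U1) = true := by decide +kernel)
    (hu : u ∈ HL.map Prod.fst := by decide) : ρ (BN.ev Z u) p.1 = p.1 ∧ ρ (BN.ev Z u) p.2 = p.2 := by
  rw [and'_eq_true] at h
  rw [← (d.st (hh u hu)).1, ← (d.st (hh u hu)).2, of_ap u h.1, of_ap u h.2, d.T0, d.T1]
  exact ⟨rfl, rfl⟩

theorem sw (u : List ℕ) (h : and' (ap u U0 U0) (ap u U1 (Nat.xor U0 U1)) = true := by decide +kernel)
    (hu : u ∈ HL.map Prod.fst := by decide) : ρ (BN.ev Z u) p.1 = p.1 ∧ ρ (BN.ev Z u) p.2 = p.1 + p.2 := by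
  rw [and'_eq_true] at h
  rw [← (d.st (hh u hu)).1, ← (d.st (hh u hu)).2, of_ap u h.1, of_ap u h.2, cv_xor, map_add, d.T0, d.T1]
  exact ⟨rfl, rfl⟩

theorem a12 : ρ (Z 12) p.1 = p.1 ∧ ρ (Z 12) p.2 = p.2 ∧ ρ (Z 12) (ρ (Z 9) p.1) = ρ (Z 9) p.1 ∧
    ρ (Z 12) (ρ (Z 9) p.2) = ρ (Z 9) p.1 + ρ (Z 9) p.2 := by
  rw [cj, cj, (d.sw [10, 12, 9]).1, (d.sw [10, 12, 9]).2, map_add]
  simpa using d.fx [12]

theorem fe : FE ρ Z (ρ (Z 9) p.1) ∧ FE ρ Z (p.1 + ρ (Z 9) p.2) := by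
  have t : (2 : V) = 0 := CharTwo.two_eq_zero
  obtain ⟨w, h1, h2⟩ := split3 (ρ := ρ) (n := ρ (Z 9) p.2) fun i hi => by
    rw [cj]
    interval_cases i
    exacts [congrArg _ (d.fx [10, 0, 9]).2, congrArg _ (d.fx [10, 1, 9]).2, congrArg _ (d.fx [10, 2, 9]).2]
  obtain ⟨a, b, rfl⟩ : Sp p w := frZ.sp d.hp d.h0 h2
  obtain ⟨b1, b2, b3, b4⟩ := d.a12
  have f0 : FE ρ Z (ρ (Z 9) p.1) := by
    have := (h1.map (by simpa using hh [12])).add h1
    simp only [map_add, map_smul, b1, b2, b4] at this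
    convert this using 1; grind
  obtain ⟨n1, n2⟩ := d.hp.ne nz27 d.h0
  obtain ⟨s1, s2⟩ := sec d.hp
  obtain rfl : b = 0 := (z2 b).resolve_right fun e => by
    have c1 : ρ (Z 13) p.1 = p.1 ∧ ρ (Z 13) p.2 = p.1 + p.2 := by simpa using d.sw [13]
    have := ((h1.map (by simpa using hh [13])).add h1) 3 (by norm_num)
    rw [map_add (ρ (Z 13)), cj, (d.fx [10, 13, 9]).2] at this
    simp only [e, one_smul, map_add, map_smul, c1.1, c1.2, s1, s2] at this
    grind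
  refine ⟨f0, ?_⟩
  rcases z2 a with rfl | rfl <;> simp only [zero_smul, one_smul, add_zero] at h1
  swap
  · rwa [add_comm]
  have e : ∀ n, lp (ρ ((Z 3 * (Z 9 * Z 3 * (Z 9)⁻¹)) ^ n)) (lp (ρ (Z 9)) p) = lp (ρ (Z 9)) (om^[n] p) := by
    intro n
    induction n with
    | zero => rw [pow_zero, map_one]; rfl
    | succ n ih =>
      rw [pow_succ, map_mul, lp_mul, Function.iterate_succ_apply']
      refine Eq.trans (congrArg _ (?_ : _ = om^[1] (lp (ρ (Z 9)) p))) (by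
        rw [lp_om, ih, ← lp_om]; rfl)
      simp only [lp, ← rho_mul ρ _ (Z 9), mul_assoc, inv_mul_cancel, mul_one]
      simp only [rho_mul, s1, s2, map_add, h1 3 (by norm_num), f0 3 (by norm_num)]
      rfl
  have e1 := (Prod.ext_iff.1 (e 10)).1
  rw [show (Z 3 * (Z 9 * Z 3 * (Z 9)⁻¹)) ^ 10 = 1 by
    simpa [pow_succ, mul_assoc, Z10] using eqZ (List.replicate 10 [3, 9, 3, 10]).flatten [] (by decide +kernel),
    om_mod, map_one] at e1
  exact absurd (by rw [map_add]; exact (congrArg (· + _) e1).trans (vv _)) (ne_zero_map ρ (Z 9) n2)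

theorem ind : LinearIndependent (ZMod 2) (Sum.elim (fam fun j : Fin 10 => lp (ρ (tw (getL [] TW j))) p)
    ![ρ (Z 9) p.1, p.1 + ρ (Z 9) p.2]) := by
  refine frZ.ind d.hp d.h0 (LinearIndependent.pair_iff.2 fun a b h => ?_) fun k => by
    fin_cases k
    exacts [d.fe.1, d.fe.2]
  obtain ⟨b1, b2, b3, b4⟩ := d.a12
  have h1 := congrArg (ρ (Z 12)) h
  have h2 := ne_zero_map ρ (Z 9) d.h0
  have t : (2 : V) = 0 := CharTwo.two_eq_zero
  rcases z2 a with rfl | rfl <;> rcases z2 b with rfl | rfl <;>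
    simp only [zero_smul, one_smul, map_add, map_zero, b1, b3, b4] at h h1 <;> grind

theorem span_le : Submodule.span (ZMod 2) (Set.range (Sum.elim
    (fam fun j : Fin 10 => lp (ρ (tw (getL [] TW j))) p) ![ρ (Z 9) p.1, p.1 + ρ (Z 9) p.2])) ≤ N0.map T := by
  refine Submodule.span_le.2 ?_
  rintro _ ⟨(j | j) | j, rfl⟩
  · exact ⟨_, N0_map _ N0_U0, (d.st (mv_run _ 0).1).1⟩
  · exact ⟨_, N0_map _ N0_U1, (d.st (mv_run _ 0).1).2⟩
  · fin_cases j
    · exact ⟨_, N0_map _ N0_U0, d.g0⟩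
    · exact ⟨_, add_mem N0_U0 (N0_map _ N0_U1), by rw [map_add, d.T0, d.g1]; rfl⟩

theorem rk : 22 ≤ finrank (ZMod 2) (N0.map T) := by
  simpa [finrank_span_eq_card d.ind] using Submodule.finrank_mono d.span_le

theorem surj : N0.map T = N :=
  Submodule.eq_of_le_of_finrank_le (by rintro _ ⟨v, -, rfl⟩; exact d.mem v) (d.hd.trans d.rk)

theorem ker {v : V} (hv : v ∈ N0) (h : T v = 0) : v = 0 ∨ v = pt 0 := by
  have h1 := (T.domRestrict N0).finrank_range_add_finrank_ker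
  have h2 := d.rk
  have h3 := N0_lt
  rw [LinearMap.range_domRestrict] at h1
  obtain ⟨w, hw⟩ := finrank_le_one_iff.1 (show finrank (ZMod 2) (LinearMap.ker (T.domRestrict N0)) ≤ 1 by omega)
  obtain ⟨a, ha⟩ := hw ⟨⟨v, hv⟩, h⟩
  have h4 : pt 0 ∈ N0 := by rw [← cv_UB]; exact N0_cv (by decide +kernel)
  have n : pt 0 ≠ 0 := by rw [pt0']; decide +kernel
  have h5 := d.ub
  generalize pt 0 = u at h4 n h5 ⊢
  obtain ⟨b, hb⟩ := hw ⟨⟨u, h4⟩, h5⟩
  have ha' : a • (w.1.1 : V) = v := congrArg (·.1.1) ha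
  have hb' : b • (w.1.1 : V) = u := congrArg (·.1.1) hb
  rw [← ha', ← hb']
  rw [← hb'] at n
  rcases z2 a with rfl | rfl <;> rcases z2 b with rfl | rfl <;> simp at n ⊢

omit d in
theorem itw_iff {k : Co2} : k ∈ itw ρ T ↔ ∀ v ∈ N0, T (s2 k v) = ρ k (T v) := Iff.rfl

theorem mem_itw {k : Co2} (hk : k ∈ HH Z) (h0 : T (s2 k (s2 (Z 9) (cv U0))) = ρ k (ρ (Z 9) p.1))
    (h1 : T (s2 k (s2 (Z 9) (cv U1))) = ρ k (ρ (Z 9) p.2)) : k ∈ itw ρ T := itw_iff.2 fun v hv => by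
  refine extB (R := BM) (Ri := BI) (f := T ∘ₗ s2 k) (g := ρ k ∘ₗ T) (by decide +kernel) (by decide +kernel)
    (fun i hi => ?_) hv
  rw [LinearMap.comp_apply, LinearMap.comp_apply]
  rcases (by omega : i < 20 ∨ i = 20 ∨ i = 21 ∨ i = 22) with h | rfl | rfl | rfl
  · rw [col_BM (by omega), (d.st (kw_mem h)).1, ← rho_mul, (d.st (mul_mem hk (kw_mem h))).1, rho_mul]
  · rw [col_BM (by norm_num), show kw 20 = [9] from rfl, BN.ev_cons, BN.ev_nil, mul_one, h0, d.g0]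
  · rw [col_BM (by norm_num), show kw 21 = [9, 3] from rfl, BN.ev_cons, BN.ev_cons, BN.ev_nil, mul_one,
      rho_mul, (sec wt0).1, h1, d.g1]
  · rw [col_BM', s2_pt, d.ub, map_zero]

theorem mem_of_fix {k : ℕ} (hk : Z k ∈ HH Z) (h : ∀ c ∈ N, FE ρ Z c → ρ (Z k) c = c)
    (e : force (mm (evM LZ [9]) U0) (fun A => force (Nat.xor U0 (mm (evM LZ [9]) U1)) fun B => and' (ap [k] A A)
      (or' (ap [k] B B) (ap [k] B (Nat.xor B UB)))) = true := by decide +kernel) : Z k ∈ itw ρ T := by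
  have a : ∀ A, cv (mm (evM LZ [9]) A) = s2 (Z 9) (cv A) := fun A => (of_ap1 ((beq_iff _ _).2 rfl)).symm
  obtain ⟨m0, m1⟩ := d.hp.mem nz27 d.hN
  have h1 := h _ (add_mem m0 (d.map _ m1)) d.fe.2
  rw [force_eq, force_eq, and'_eq_true, or'_eq_true] at e
  refine d.mem_itw hk (by rw [← a, of_ap1 e.1, a, d.g0, h _ (d.map _ m0) d.fe.1]) ?_
  have h2 : T (s2 (Z k) (cv U0 + s2 (Z 9) (cv U1))) = p.1 + ρ (Z 9) p.2 := by
    rw [← a, ← cv_xor]
    rcases e.2 with e | e <;> rw [of_ap1 e] <;>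
      simp only [cv_xor, a, d.T0, d.g1, cv_UB, d.ub, map_add, add_zero]
  rw [map_add, map_add, (d.st hk).1, ← h1, map_add] at h2
  exact add_left_cancel h2

theorem mem5 {k : ℕ} (hk : Z k ∈ HH Z) (e : eqM LZ [k, k, k, k, k] [] = true := by decide +kernel) :
    ∀ c ∈ N, FE ρ Z c → ρ (Z k) c = c := fun c hc hf => by
  have h1 := congrArg (ρ · c) (eqZ _ _ e)
  simp only [BN.ev_cons, BN.ev_nil, mul_one, rho_mul, map_one, Module.End.one_apply] at h1
  have := frZ.dep3 d.hp d.h0 d.hd d.hN hc hf hk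
  grind

theorem mem6 : ∀ c ∈ N, FE ρ Z c → ρ (Z 6) c = c := fun c hc hf => by
  have h1 := congrArg (ρ · c) (eqZ [11, 11, 11, 11] [] (by decide +kernel))
  have h2 := congrArg (ρ · c) (eqZ [11, 11] [6] (by decide +kernel))
  simp only [BN.ev_cons, BN.ev_nil, mul_one, rho_mul, map_one, Module.End.one_apply] at h1 h2
  have := frZ.dep3 d.hp d.h0 d.hd d.hN hc hf (r := Z 11) (by simpa using hh [11])
  grind

theorem memY (u u' : List ℕ) (e : and' (eqM LZ (appendR u [9]) (9 :: u')) (and' (ap u' U0 U0)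
      (or' (ap u' U1 U1) (ap u' U1 (Nat.xor U0 U1)))) = true := by decide +kernel)
    (hu : u ∈ HL.map Prod.fst := by decide) (hu' : u' ∈ HL.map Prod.fst := by decide) :
    BN.ev Z u ∈ itw ρ T := by
  rw [and'_eq_true, and'_eq_true, or'_eq_true, appendR_eq] at e
  have e1 : ∀ (ρ : Co2 →* EV) v, ρ (BN.ev Z u) (ρ (Z 9) v) = ρ (Z 9) (ρ (BN.ev Z u') v) := fun ρ v => by
    rw [← rho_mul, ← rho_mul, show BN.ev Z u * Z 9 = Z 9 * BN.ev Z u' by
      simpa [BN.ev_append] using eqZ _ _ e.1]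
  refine d.mem_itw (hh u hu) ?_ ?_ <;> rw [e1, e1]
  · rw [← (d.st (hh u' hu')).1, of_ap u' e.2.1, d.g0, d.T0]
  · rw [← (d.st (hh u' hu')).2]
    rcases e.2.2 with e | e <;> rw [of_ap u' e] <;> simp only [cv_xor, d.g0, d.g1, d.T0, d.T1, map_add]

theorem memY' (k : ℕ) (h : k = 12 ∨ k = 13) :
    Z k ∈ itw ρ T ⊓ (itw ρ T).comap (MulAut.conj (Z 9)).toMonoidHom := by
  rcases h with rfl | rfl
  · exact ⟨by simpa using d.memY [12] [10, 12, 9], by simpa [Z10, mul_assoc] using d.memY [9, 12, 10] [12]⟩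
  · exact ⟨by simpa using d.memY [13] [10, 13, 9], by simpa [Z10, mul_assoc] using d.memY [9, 13, 10] [13]⟩

omit d in
theorem two {y : Co2} (hy : y ∈ itw ρ T ⊓ (itw ρ T).comap (MulAut.conj (Z 9)).toMonoidHom) {v : V}
    (hv : v ∈ N0) : T (s2 (Z 9) (s2 y v)) = ρ (Z 9 * y * (Z 9)⁻¹) (T (s2 (Z 9) v)) ∧
      ρ (Z 9) (T (s2 y v)) = ρ (Z 9 * y * (Z 9)⁻¹) (ρ (Z 9) (T v)) := by
  rw [hy.1 v hv, ← rho_mul ρ, ← rho_mul ρ, inv_mul_cancel_right, ← rho_mul s2]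
  refine ⟨?_, rfl⟩
  rw [← inv_mul_cancel_right (Z 9 * y) (Z 9), rho_mul, inv_mul_cancel_right]
  exact hy.2 _ (N0_map _ hv)

omit d in
theorem N0_V0 : cv V0 ∈ N0 := N0_cv (by decide +kernel)

theorem eq0 : T (s2 (Z 9) (cv V0)) = ρ (Z 9) (T (cv V0)) := by
  obtain ⟨v, hv, e⟩ := d.surj.ge (d.map (Z 9)⁻¹ (d.mem (s2 (Z 9) (cv V0))))
  have e1 : ρ (Z 9) (T v) = T (s2 (Z 9) (cv V0)) := by rw [e, ← rho_mul, mul_inv_cancel, map_one]; rfl
  have e2 : s2 (Z 13) (cv V0) + cv V0 + s2 (Z 12) (cv V0) = 0 := by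
    rw [of_ap1 ((beq_iff _ _).2 rfl), of_ap1 ((beq_iff _ _).2 rfl), ← cv_xor, ← cv_xor]
    decide +kernel
  have y12 := d.memY' 12 (Or.inl rfl)
  have y13 := d.memY' 13 (Or.inr rfl)
  have e3 : T (s2 (Z 13) v + v + s2 (Z 12) v) = 0 := by
    by_contra n
    refine ne_zero_map ρ (Z 9) n ?_
    rw [map_add, map_add, map_add, map_add, (two y12 hv).2, (two y13 hv).2, e1, ← (two y12 N0_V0).1,
      ← (two y13 N0_V0).1, ← map_add, ← map_add, ← map_add, ← map_add, e2, map_zero, map_zero]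
  obtain ⟨c, e4⟩ : ∃ c : ZMod 2, T v = c • T (cv V0) := by
    rcases d.ker (add_mem (add_mem (N0_map _ hv) hv) (N0_map _ hv)) e3 with h | h
    · exact ⟨_, by rw [← map_smul, ← null_one h]⟩
    · have t : (2 : V) = 0 := CharTwo.two_eq_zero
      exact ⟨_, by rw [← map_smul, ← null_one (v := v + pt 0) (by simp only [map_add, s2_pt]; grind),
        map_add, d.ub, add_zero]⟩
  rcases z2 c with rfl | rfl
  · rw [e4, zero_smul, map_zero] at e1
    rcases d.ker (N0_map _ N0_V0) e1.symm with h | h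
    · exact absurd h (ne_zero_map _ _ (by decide +kernel))
    · have := congrArg (s2 (Z 9)⁻¹) h
      rw [← rho_mul, inv_mul_cancel, map_one, s2_pt, ← cv_UB] at this
      exact absurd (show cv V0 = cv UB from this) (by decide +kernel)
  · rw [← e1, e4, one_smul]

theorem mem9 : Z 9 ∈ itw ρ T := itw_iff.2 fun v hv => by
  refine ext_R (f := T ∘ₗ s2 (Z 9)) (g := ρ (Z 9) ∘ₗ T) (fun u hu => ?_) ?_ ?_ hv
  · have := two (show BN.ev Z u ∈ _ from list_prod_mem (by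
      simpa using fun a ha => d.memY' a (hu a ha))) N0_V0
    simp only [LinearMap.comp_apply, this.1, this.2, d.eq0]
  · have := d.st (hh [9, 9])
    simp only [BN.ev_cons, BN.ev_nil, mul_one, rho_mul] at this
    simp [-map_mul, rho_mul, (sec wt0).1, d.T0, d.T1, d.g0, d.g1, this.1, this.2]
  · rw [LinearMap.comp_apply, LinearMap.comp_apply, s2_pt, d.ub, map_zero]

theorem top : itw ρ T = ⊤ :=
  have h7 : Z 7 ∈ HH Z := by simpa using hh [7]
  have h8 : Z 8 ∈ HH Z := by simpa using hh [8]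
  top_of (d.mem_of_fix h7 (d.mem5 h7)) (d.mem_of_fix h8 (d.mem5 h8)) d.mem9
    (d.mem_of_fix (by
      rw [← show Z 11 * Z 11 = Z 6 by simpa using eqZ [11, 11] [6] (by decide +kernel)]
      simpa using mul_mem (hh [11]) (hh [11])) d.mem6)

end Dt

theorem co2_module (ρ : Co2 →* Module.End (ZMod 2) (Fin 22 → ZMod 2)) (hρ : Function.Injective ρ) :
    ∃ T : V →ₗ[ZMod 2] (Fin 22 → ZMod 2), (∀ n, ∃ v ∈ N0, T v = n) ∧
      (∀ v ∈ N0, T v = 0 ↔ v = 0 ∨ v = pt 0) ∧ ∀ g, ∀ v ∈ N0, T (rho (pi2 g) *ᵥ v) = ρ g (T v) := by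
  let pr : V →ₗ[ZMod 2] (Fin 22 → ZMod 2) := LinearMap.funLeft _ _ (Fin.castLE (by norm_num))
  obtain ⟨j, hj⟩ := pr.exists_rightInverse_of_surjective (LinearMap.range_eq_top.2
    (LinearMap.funLeft_surjective_of_injective _ _ _ (Fin.castLE_injective _)))
  have e : ∀ x, pr (j x) = x := LinearMap.congr_fun hj
  let ρ' : Co2 →* EV :=
    { toFun := fun g => j ∘ₗ ρ g ∘ₗ pr + 1 - j ∘ₗ pr
      map_one' := LinearMap.ext fun v => by simp
      map_mul' := fun a b => LinearMap.ext fun v => by simp [e]; abel }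
  have e' : ∀ g v, ρ' g v = j (ρ g (pr v)) + v - j (pr v) := fun _ _ => rfl
  obtain ⟨p, T, d⟩ := exists_Dt (ρ := ρ') (N := LinearMap.range j)
    (fun h => (map_ne_one_iff _ hρ).2 Z0_ne (LinearMap.ext fun x => by
      simpa [e', e] using congrArg (fun f : EV => pr (f (j x))) h))
    (by simpa using j.finrank_range_le) fun g v => ⟨ρ g (pr v) - pr v, by
      rw [e', map_sub, add_sub_right_comm, add_assoc, vv, add_zero]⟩
  refine ⟨pr ∘ₗ T, fun n => ?_, fun v hv => ⟨fun h => d.ker hv ?_, ?_⟩, fun g v hv => ?_⟩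
  · obtain ⟨v, hv, h⟩ := d.surj.ge ⟨n, rfl⟩
    exact ⟨v, hv, by rw [LinearMap.comp_apply, h, e]⟩
  · obtain ⟨n, hn⟩ := d.mem v
    rw [LinearMap.comp_apply, ← hn, e] at h
    rw [← hn, h, map_zero]
  · rintro (rfl | rfl) <;> simp [d.ub]
  · rw [LinearMap.comp_apply, ← s2_apply, d.top.ge (mem_top g) v hv, e']
    simp [e]

end Cfsg.Agent.MonL.W3.C2
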