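import Cfsg.Agent.MonL.Shape

/-! Preimages in `Q` of subspaces of the Leech lattice modulo two. -/

set_option autoImplicit false

namespace Cfsg.Agent.MonL

open Subgroup Cfsg Cfsg.Spor Cfsg.Agent.Spor Cfsg.Agent.TT Cfsg.Agent.LES Cfsg.Agent.Spor.Leech
  Cfsg.Agent.C1M
open scoped Matrix

variable {G : Type*} [Group G] {z : G} {Q : Subgroup G} {π : centralizer ({z} : Set G) →* Co1}
  {β : V → G}

theorem exists_MV' {φ : leechLattice → G} (d : MonData z Q π φ) :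
    ∃ β, MV z Q π β ∧ ∀ x, Eqv z (β (red x)) (φ (emb x)) := by
  choose σ hσ using red_surj
  have e : ∀ x, Eqv z (φ (emb (σ (red x)))) (φ (emb x)) := fun x =>
    d.eqv_iff.2 (red_eq_iff'.1 (hσ _))
  refine ⟨fun u => φ (emb (σ u)), ⟨d.lx, d.ker, ⟨fun _ => d.mem _, fun v w => ?_, fun x hx => ?_,
    fun v w h => ?_⟩, fun a u => ?_, fun x => d.sq_iff (e x)⟩, e⟩
  · have := e (σ v + σ w)
    rw [red_add, hσ, hσ, map_add] at this
    exact this.trans d.z_sq (d.add _ _)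
  · obtain ⟨v, hv⟩ := d.onto x hx
    obtain ⟨y, rfl⟩ := emb_surjective v
    exact ⟨red y, hv.trans d.z_sq ((e y).symm d.z_sq)⟩
  · rw [← hσ v, ← hσ w]; exact red_eq_iff'.2 (d.eqv_iff.1 h)
  · obtain ⟨g, hg⟩ := QuotientGroup.mk_surjective (π a)
    have := e (lin g (σ u))
    rw [← rho0_red, hσ, ← rho_mk, hg, emb_lin] at this
    exact this.trans d.z_sq (d.conj a g hg _)

namespace MV

variable (d : MV z Q π β)
include d

theorem zz : z * z = 1 := d.lx.z_sq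

theorem eqv_add {x y : G} {u v : V} (hx : Eqv z x (β u)) (hy : Eqv z y (β v)) :
    Eqv z (x * y) (β (u + v)) :=
  (eqv_mul d.lx.toXS (d.crd.mem v) hx hy).trans d.zz ((d.crd.add u v).symm d.zz)

theorem eqv_inv {x : G} {u : V} (hx : Eqv z x (β u)) : Eqv z x⁻¹ (β u) :=
  Eqv.trans d.zz (d.lx.inv (hx.mem d.lx.z_mem (d.crd.mem u))) hx

theorem eqv_conj (a : centralizer ({z} : Set G)) {x : G} {u : V} (hx : Eqv z x (β u)) :
    Eqv z (a * x * (a : G)⁻¹) (β (rho (π a) *ᵥ u)) :=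
  (hx.conj (MonData.comm_z a)).trans d.zz ((d.conj a u).symm d.zz)

theorem eq_of_eqv {x : G} {u v : V} (hx : Eqv z x (β u)) (hy : Eqv z x (β v)) : u = v :=
  d.crd.inj _ _ ((hx.symm d.zz).trans d.zz hy)

/-- The preimage of a subspace. -/
def pre (U : Submodule (ZMod 2) V) : Subgroup G where
  carrier := {x | ∃ u ∈ U, Eqv z x (β u)}
  one_mem' := ⟨0, U.zero_mem, (d.crd.zero d.lx.toXS).symm d.zz⟩
  mul_mem' := fun ⟨_, hu, a⟩ ⟨_, hv, b⟩ => ⟨_, U.add_mem hu hv, d.eqv_add a b⟩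
  inv_mem' := fun ⟨_, hu, a⟩ => ⟨_, hu, d.eqv_inv a⟩

variable {U : Submodule (ZMod 2) V}

theorem mem_pre {x : G} {u : V} (hx : Eqv z x (β u)) : x ∈ d.pre U ↔ u ∈ U :=
  ⟨fun ⟨_, hv, a⟩ => d.eq_of_eqv a hx ▸ hv, fun h => ⟨u, h, hx⟩⟩

theorem pre_le : d.pre U ≤ Q := fun _ ⟨u, _, a⟩ => a.mem d.lx.z_mem (d.crd.mem u)

theorem z_mem_pre : z ∈ d.pre U :=
  ⟨0, U.zero_mem, Eqv.trans d.zz (Or.inr (one_mul z).symm) ((d.crd.zero d.lx.toXS).symm d.zz)⟩

theorem card_pre : Nat.card (d.pre U) = Nat.card U * 2 := by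
  have := Nat.card_eq_of_bijective (fun p : U × Bool =>
    (⟨if p.2 then β p.1 * z else β p.1, p.1, p.1.2, by
      split_ifs
      exacts [Or.inr rfl, Or.inl rfl]⟩ : d.pre U)) ⟨?_, ?_⟩
  · rw [← this]; simp
  · rintro ⟨u, a⟩ ⟨v, b⟩ e
    have e1 : (if a then β u * z else β u) = if b then β v * z else β v := congrArg Subtype.val e
    obtain rfl : u = v := Subtype.ext (d.eq_of_eqv (x := if a then β u * z else β u)
      (by cases a; exacts [Or.inl rfl, Or.inr rfl])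
      (by rw [e1]; cases b; exacts [Or.inl rfl, Or.inr rfl]))
    have := d.lx.z_ne
    cases a <;> cases b <;> simp_all
  · rintro ⟨x, u, hu, rfl | rfl⟩
    exacts [⟨(⟨u, hu⟩, false), rfl⟩, ⟨(⟨u, hu⟩, true), rfl⟩]

theorem mem_norm_pre [Finite G] (a : centralizer ({z} : Set G))
    (h : ∀ u ∈ U, rho (π a) *ᵥ u ∈ U) : (a : G) ∈ normalizer (d.pre U : Set G) :=
  mem_normalizer_fintype fun _ ⟨u, hu, e⟩ => ⟨_, h u hu, d.eqv_conj a e⟩

theorem cent_pre_le : centralizer (d.pre U : Set G) ≤ centralizer {z} := fun _ h =>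
  mem_centralizer_singleton_iff.2 (h z d.z_mem_pre).symm

theorem fix_of_cent {a : centralizer ({z} : Set G)} (h : (a : G) ∈ centralizer (d.pre U : Set G))
    {u : V} (hu : u ∈ U) : rho (π a) *ᵥ u = u := by
  have := d.conj a u
  rw [conj_eq_of_comm (h _ ⟨u, hu, Eqv.refl _ _⟩).symm] at this
  exact d.crd.inj _ _ this

theorem exists_cent_lift [Finite G] (a : centralizer ({z} : Set G))
    (h : ∀ u ∈ U, rho (π a) *ᵥ u = u) :
    ∃ b : centralizer ({z} : Set G), π b = π a ∧ (b : G) ∈ centralizer (d.pre U : Set G) := by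
  have h1 : ∀ x ∈ d.pre U, x ∉ centralizer ({(a : G)} : Set G) → a * x * (a : G)⁻¹ = x * z := by
    rintro x ⟨u, hu, e⟩ hx
    have := d.eqv_conj a e
    rw [h u hu] at this
    exact (this.trans d.zz (e.symm d.zz)).resolve_left fun e =>
      hx (mem_centralizer_singleton_iff.2 (comm_of_conj_eq e).symm)
  obtain ⟨q, hq, e⟩ := d.lx.exists_centralizer_eq d.pre_le (B := d.pre U ⊓ centralizer {(a : G)})
    inf_le_left (fun hz => ⟨hz, mem_centralizer_singleton_iff.2 (MonData.comm_z a).symm⟩)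
    fun x hx y hy hx' hy' => ⟨mul_mem hx hy, mem_centralizer_singleton_iff.2 (comm_of_conj_eq (by
      rw [← conj_mul, h1 x hx fun e => hx' ⟨hx, e⟩, h1 y hy fun e => hy' ⟨hy, e⟩, mul_assoc,
        ← mul_assoc z, ← d.lx.z_comm y (d.pre_le hy), d.lx.mul_z_z])).symm⟩
  refine ⟨⟨q, LX_le_centralizer d.lx hq⟩ * a, by rw [map_mul, (d.ker _).2 hq, one_mul],
    fun x hx => (comm_of_conj_eq ?_).symm⟩
  rw [show ((⟨q, LX_le_centralizer d.lx hq⟩ * a : centralizer ({z} : Set G)) : G) * x * _ =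
    q * (a * x * (a : G)⁻¹) * q⁻¹ by simp [mul_assoc]]
  by_cases hc : x ∈ centralizer ({(a : G)} : Set G)
  · rw [conj_eq_of_comm (mem_centralizer_singleton_iff.1 hc).symm,
      conj_eq_of_comm ((e x hx).2 ⟨hx, hc⟩)]
  · rw [h1 x hx hc, ← conj_mul, d.lx.conj_of_ne hq (d.pre_le hx) fun e' => hc ((e x hx).1 e').2,
      conj_eq_of_comm (d.lx.z_comm q hq), d.lx.mul_z_z]

theorem add_mem_of_comm [Finite G] (a : centralizer ({z} : Set G))
    (h : ∀ q ∈ Q, q ∈ centralizer (d.pre U : Set G) → q * a = a * q) (v : V) :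
    rho (π a) *ᵥ v + v ∈ U := by
  have hy := d.crd.mem v
  have hy' := d.lx.norm a (MonData.comm_z a) _ hy
  rw [← d.mem_pre (d.eqv_add (d.eqv_conj a (Eqv.refl _ _)) (Eqv.refl _ _))]
  refine d.lx.mem_of_comm_centralizer d.pre_le d.z_mem_pre (mul_mem hy' hy) fun q hq hc => ?_
  rw [← cmv_eq_zero, cmv_mul_right d.lx.toXS hy' hy hq]
  have e : cmv q (a * β v * (a : G)⁻¹) = cmv q (β v) := by
    rw [← cmv_conj (a : G) q (β v), conj_eq_of_comm (h q hq hc).symm]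
  rw [e]; exact CharTwo.add_self_eq_zero _

end MV

end Cfsg.Agent.MonL
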