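import Cfsg.Agent.F24.TrioAux
import Cfsg.Agent.MonL.V4

/-! Normalisers of elementary abelian subgroups all of whose involutions are centres of large
extraspecial subgroups containing the subgroup. -/

set_option autoImplicit false

namespace Cfsg.Agent.MonL

open Subgroup Cfsg Cfsg.Agent.TT Cfsg.Agent.F24 Cfsg.Agent.Class Matrix
open scoped commutatorElement

variable {G : Type*} [Group G] {n : ℕ} {A : Type*} [Group A]

theorem conj_mem_cent {E : Subgroup G} {l c : G} (hl : l ∈ normalizer (E : Set G))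
    (hc : c ∈ centralizer (E : Set G)) : l * c * l⁻¹ ∈ centralizer (E : Set G) := fun v hv => by
  have := hc _ ((mem_normalizer_iff''.1 hl v).1 hv)
  calc v * (l * c * l⁻¹) = l * (l⁻¹ * v * l * c) * l⁻¹ := by group
    _ = _ := by rw [this]; group

theorem le_kerC {E D : Subgroup G} (θ : centralizer (E : Set G) →* A)
    (hθ : Function.Surjective θ) (hA : pCore 2 A = ⊥) (hD : IsPGroup 2 D)
    (hle : D ≤ centralizer (E : Set G))
    (hn : ∀ c ∈ centralizer (E : Set G), ∀ d ∈ D, c * d * c⁻¹ ∈ D) :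
    D ≤ θ.ker.map (centralizer (E : Set G)).subtype := fun d hd => by
  have := Grp.le_pCore (N := (D.subgroupOf _).map θ)
    (Normal.map ⟨fun d hd c => hn c.1 c.2 d.1 hd⟩ θ hθ) (hD.comap_subtype.map θ)
    ⟨⟨d, hle hd⟩, hd, rfl⟩
  rw [hA] at this
  exact ⟨_, this, rfl⟩

theorem conj_mem_kerC {E : Subgroup G} (θ : centralizer (E : Set G) →* A)
    (hθ : Function.Surjective θ) (hA : pCore 2 A = ⊥) (hk : IsPGroup 2 θ.ker) {l r : G}
    (hl : l ∈ normalizer (E : Set G)) (hr : r ∈ θ.ker.map (centralizer (E : Set G)).subtype) :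
    l * r * l⁻¹ ∈ θ.ker.map (centralizer (E : Set G)).subtype := by
  refine le_kerC θ hθ hA (D := (θ.ker.map (centralizer (E : Set G)).subtype).map
    (MulAut.conj l).toMonoidHom) ((hk.map _).map _) ?_ ?_ ⟨r, hr, rfl⟩
  · rintro _ ⟨r, hr, rfl⟩
    exact conj_mem_cent hl (map_subtype_le _ hr)
  · rintro c hc _ ⟨_, ⟨r, hr, rfl⟩, rfl⟩
    refine ⟨_, ⟨_, θ.normal_ker.conj_mem r hr ⟨_, conj_mem_cent (inv_mem hl) hc⟩, rfl⟩, ?_⟩
    change l * (l⁻¹ * c * l⁻¹⁻¹ * r * (l⁻¹ * c * l⁻¹⁻¹)⁻¹) * l⁻¹ = c * (l * r * l⁻¹) * c⁻¹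
    group

theorem exists_transvU [Finite G] (u : Multiplicative (Fin n → ZMod 2) →* G)
    (hu : Function.Injective u) (θ : centralizer (u.range : Set G) →* A)
    (hθ : Function.Surjective θ) (hA : pCore 2 A = ⊥)
    (hQ : ∀ b ∈ u.range, b ≠ 1 → ∃ R, LX R b ∧ u.range ≤ R) {i j : Fin n} (hij : i ≠ j) :
    ∃ q ∈ normalizer (u.range : Set G), (∀ c ∈ centralizer (u.range : Set G),
      ⁅q, c⁆ ∈ θ.ker.map (centralizer (u.range : Set G)).subtype) ∧
      ∀ a, q * u (Multiplicative.ofAdd a) * q⁻¹ =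
        u (Multiplicative.ofAdd (a + Pi.single i (a j))) := by
  obtain ⟨R, h1, h2⟩ := hQ (u (Multiplicative.ofAdd (Pi.single i 1))) ⟨_, rfl⟩ fun e => by
    simpa using congrFun (show Pi.single i 1 = 0 from (injective_iff_map_eq_one u).1 hu _ e) i
  let B : Subgroup (Multiplicative (Fin n → ZMod 2)) :=
    { carrier := {a | a.toAdd j = 0}
      one_mem' := rfl
      mul_mem' := fun {a b} ha hb => by
        change a.toAdd j + b.toAdd j = 0
        rw [ha, hb, add_zero]
      inv_mem' := fun {a} ha => neg_eq_zero.2 ha }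
  have hB : ∀ a, u a ∈ B.map u ↔ a.toAdd j = 0 := fun a => mem_map_iff_mem hu
  obtain ⟨q, hq, e⟩ := h1.toXS.exists_centralizer_eq h2 (B := B.map u) (map_le_range _ _)
    (fun _ => (hB _).2 (by simp [hij.symm])) (by
      rintro _ ⟨a, rfl⟩ _ ⟨b, rfl⟩ ha hb
      rw [← map_mul, hB] at *
      exact (by decide : ∀ s t : ZMod 2, ¬ s = 0 → ¬ t = 0 → s + t = 0) _ _ ha hb)
  have act : ∀ a, q * u (Multiplicative.ofAdd a) * q⁻¹ =
      u (Multiplicative.ofAdd (a + Pi.single i (a j))) := fun a => by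
    have e1 := (e _ ⟨Multiplicative.ofAdd a, rfl⟩).trans (hB _)
    by_cases ha : a j = 0
    · rw [conj_eq_of_comm (e1.2 ha), ha, Pi.single_zero, add_zero]
    · rw [h1.toXS.conj_of_ne hq (h2 ⟨_, rfl⟩) fun e2 => ha (e1.1 e2), ← map_mul,
        (by decide : ∀ s : ZMod 2, ¬ s = 0 → s = 1) _ ha]
      rfl
  have hL : q ∈ normalizer (u.range : Set G) := mem_normalizer_fintype (by
    rintro _ ⟨a, rfl⟩
    exact ⟨_, (act a.toAdd).symm⟩)
  refine ⟨q, hL, fun c hc => ?_, act⟩
  have cn : ∀ c ∈ centralizer (u.range : Set G), ∀ d ∈ R, c * d * c⁻¹ ∈ R := fun c hc d hd =>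
    h1.norm c (hc _ ⟨_, rfl⟩).symm d hd
  refine le_kerC θ hθ hA (D := R ⊓ centralizer (u.range : Set G)) h1.toXS.isPGroup.to_inf_left
    inf_le_right (fun c hc d hd => ⟨cn c hc d hd.1,
      Subgroup.mul_mem _ (Subgroup.mul_mem _ hc hd.2) (Subgroup.inv_mem _ hc)⟩)
    ⟨?_, Subgroup.mul_mem _ (conj_mem_cent hL hc) (Subgroup.inv_mem _ hc)⟩
  rw [commutatorElement_def, mul_assoc, mul_assoc, ← mul_assoc c]
  exact mul_mem hq (cn c hc _ (inv_mem hq))

theorem exists_SL_prod [Finite G] (u : Multiplicative (Fin n → ZMod 2) →* G)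
    (hu : Function.Injective u) (θ : centralizer (u.range : Set G) →* A)
    (hθ : Function.Surjective θ) (hA : pCore 2 A = ⊥) (hZ : center A = ⊥)
    (hk : IsPGroup 2 θ.ker) (hQ : ∀ b ∈ u.range, b ≠ 1 → ∃ R, LX R b ∧ u.range ≤ R) :
    ∃ φ : normalizer (u.range : Set G) →* A × SpecialLinearGroup (Fin n) (ZMod 2),
      Function.Surjective φ ∧
        φ.ker = (θ.ker.map (centralizer (u.range : Set G)).subtype).subgroupOf _ := by
  obtain ⟨α, hα⟩ := exists_SL_hom u hu
  have h2 : ∀ c, θ c = 1 ↔ (c : G) ∈ θ.ker.map (centralizer (u.range : Set G)).subtype :=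
    fun c => θ.mem_ker.symm.trans (mem_map_iff_mem (subtype_injective _)).symm
  have ext : ∀ (l : normalizer (u.range : Set G)) (B : SpecialLinearGroup (Fin n) (ZMod 2)),
      (∀ a, (l : G) * u (Multiplicative.ofAdd a) * (l : G)⁻¹ =
        u (Multiplicative.ofAdd (B.1 *ᵥ a))) → α l = B := fun l B e =>
    Subtype.ext (Matrix.mulVec_injective (funext fun a =>
      Multiplicative.ofAdd.injective (hu ((hα l a).symm.trans (e a)))))
  have kα : ∀ l, α l = 1 ↔ (l : G) ∈ centralizer (u.range : Set G) := fun l =>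
    ⟨fun e => by
      rintro _ ⟨a, rfl⟩
      have := hα l a.toAdd
      rw [e] at this
      exact (comm_of_conj_eq (by simpa using this)).symm,
    fun e => ext l 1 fun a => by simpa using conj_eq_of_comm (e _ ⟨_, rfl⟩).symm⟩
  let ι : α.ker →* centralizer (u.range : Set G) :=
    ((normalizer (u.range : Set G)).subtype.comp α.ker.subtype).codRestrict _
      fun c => (kα _).1 c.2
  let M : Subgroup (normalizer (u.range : Set G)) :=
    { carrier := {q | ∀ c ∈ centralizer (u.range : Set G),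
        ⁅(q : G), c⁆ ∈ θ.ker.map (centralizer (u.range : Set G)).subtype}
      one_mem' := fun c _ => by simp
      mul_mem' := fun {a b} ha hb c hc => by
        have := mul_mem (conj_mem_kerC θ hθ hA hk a.2 (hb c hc)) (ha c hc)
        rw [coe_mul]
        simpa only [commutatorElement_def, mul_assoc, _root_.mul_inv_rev,
          inv_mul_cancel_left] using this
      inv_mem' := fun {a} ha c hc => by
        have := conj_mem_kerC θ hθ hA hk (inv_mem a.2) (inv_mem (ha c hc))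
        rw [coe_inv]
        simpa only [commutatorElement_def, mul_assoc, _root_.mul_inv_rev, inv_inv,
          inv_mul_cancel, mul_one] using this }
  have hM : M.map α = ⊤ := SL_eq_top_of_transvection_mem _ fun i j hij c => by
    rcases (by decide : ∀ s : ZMod 2, s = 0 ∨ s = 1) c with rfl | rfl
    · rw [SpecialLinearGroup.transvection_coeff_zero]; exact one_mem _
    · obtain ⟨q, hq, e1, e2⟩ := exists_transvU u hu θ hθ hA hQ hij
      refine ⟨⟨q, hq⟩, e1, ext _ _ fun a => (e2 a).trans ?_⟩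
      rw [SpecialLinearGroup.transvection_coe, add_mulVec, one_mulVec, single_mulVec]
      simp [Pi.single]
  obtain ⟨φ, h3, h4⟩ := exists_prod_hom α (θ.comp ι) (hθ.comp fun c =>
    ⟨⟨⟨c, centralizer_le_normalizer _ c.2⟩, (kα _).2 c.2⟩, rfl⟩) hZ fun y => by
      obtain ⟨m, hm, rfl⟩ := hM.ge (mem_top y)
      refine ⟨m, rfl, fun c c' e => ?_⟩
      rw [← mul_inv_eq_one, ← map_inv, ← map_mul]
      refine (h2 _).2 ?_
      change (c'.1 : G) * (c.1 : G)⁻¹ ∈ _
      rw [e]
      exact hm _ ((kα _).1 c.2)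
  refine ⟨(MulEquiv.prodComm (M := SpecialLinearGroup (Fin n) (ZMod 2)) (N := A)).toMonoidHom.comp φ,
    MulEquiv.prodComm.surjective.comp h3, ?_⟩
  ext l
  rw [MonoidHom.mem_ker, MonoidHom.comp_apply, MulEquiv.coe_toMonoidHom, map_eq_one_iff _
    MulEquiv.prodComm.injective]
  exact (h4 l).trans ⟨fun ⟨_, e⟩ => (h2 _).1 e,
    fun e => ⟨(kα l).2 (map_subtype_le _ e), (h2 _).2 e⟩⟩

end Cfsg.Agent.MonL
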