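import Mathlib
import Cfsg.Agent.MonL.Mod22
import Cfsg.Agent.Mon.BSimple

/-! An involution centraliser of shape `2^(1+22).Co2` acts on the section of the Leech lattice modulo two. -/

set_option autoImplicit false

namespace Cfsg.Agent.MonL

open Subgroup Cfsg Cfsg.Spor Cfsg.Agent.Spor Cfsg.Agent.TT Cfsg.Agent.LES Cfsg.Agent.Spor.Leech
  Cfsg.Agent.C1M Cfsg.Agent.Mon W3.C2
open scoped Matrix

variable {G : Type*} [Group G] {z : G} {Q : Subgroup G}

theorem red_mem_N0 {x : Fin 24 → ℤ} : red x ∈ N0 ↔ emb x ∈ leechPerpU := by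
  change fn 0xc74 ⬝ᵥ red x = 0 ↔ _
  rw [BabyData.mem_perp, ← emb_cU, dotInt_comm, dot_emb, fn_r0, pt0, ← Matrix.dotProduct_mulVec]
  have : red (toF cU) ⬝ᵥ (mat GM *ᵥ red x) =
      ((∑ k : Fin 24, toF cU k * ∑ l : Fin 24, ent Gm k l * x l : ℤ) : ZMod 2) := by
    simp only [dotProduct, Matrix.mulVec, mat_GM, red, Int.cast_sum, Int.cast_mul]
  rw [this, ZMod.intCast_zmod_eq_zero_iff_dvd]
  omega

theorem exists_babyData_of_shape [Finite G] (h : LX Q z) (hc : Nat.card Q = 2 ^ 23)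
    (γ : centralizer ({z} : Set G) →* Co2) (surj : Function.Surjective γ)
    (ker : ∀ a, γ a = 1 ↔ (a : G) ∈ Q) : ∃ φ, BabyData z Q γ φ := by
  obtain ⟨β, c⟩ := exists_crd (n := 22) h.toXS hc
  obtain ⟨ρ, hρ, hc'⟩ := c.exists_rep h γ surj ker
  obtain ⟨T, h1, h2, h3⟩ := co2_module ρ hρ
  have m : ∀ v : leechPerpU, red (embEquiv.symm v) ∈ N0 := fun v =>
    red_mem_N0.2 (by rw [show emb (embEquiv.symm v) = v from embEquiv.apply_symm_apply _]; exact v.2)
  refine ⟨fun v => β (T (red (embEquiv.symm v))), h,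
    O2C_le_of_quot γ surj ker fun N _ hN => Co2_normal_two_eq_bot N hN, hc, surj, ker,
    fun v => c.mem _, fun v w => ?_, fun x hx => ?_, fun v => ?_, fun a x y hg => ?_⟩
  · rw [AddSubgroup.coe_add, map_add, red_add, map_add]; exact c.add _ _
  · obtain ⟨u, hu⟩ := c.onto x hx
    obtain ⟨v, hv, rfl⟩ := h1 u
    obtain ⟨y, rfl⟩ := red_surj v
    exact ⟨⟨embEquiv y, red_mem_N0.1 hv⟩, by simpa using hu⟩
  · have e := red_eq_iff' (x := embEquiv.symm v) (y := 0)
    have e' := red_eq_iff' (x := embEquiv.symm v) (y := toF cU)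
    rw [map_zero, sub_zero, show red 0 = 0 from funext fun _ => Int.cast_zero] at e
    rw [← pt0, emb_cU] at e'
    rw [show emb (embEquiv.symm v) = v from embEquiv.apply_symm_apply _] at e e'
    simp only [sub_eq_iff_eq_add'] at e'
    rw [← e, ← e', ← h2 _ (m v)]
    exact ⟨fun h1 => c.inj _ _ (h1.trans h.z_sq ((c.zero h.toXS).symm h.z_sq)), fun h1 => h1 ▸ c.zero h.toXS⟩
  · have e : embEquiv.symm (y : leechLattice) = lin (co2Incl (γ a)) (embEquiv.symm x) :=
      emb_injective (by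
        rw [emb_lin, show ∀ v, emb (embEquiv.symm v) = v from embEquiv.apply_symm_apply,
          show ∀ v, emb (embEquiv.symm v) = v from embEquiv.apply_symm_apply, ← hg]; rfl)
    rw [e, ← rho0_red, show rho0 (co2Incl (γ a)) = rho (pi2 (γ a)) from rfl, h3 _ _ (m x)]
    exact hc' a _

theorem babyType_of_setting [Finite G] {y : G} (Q : Subgroup (centralizer ({y} : Set G))) [Q.Normal]
    (hS : IsExtraspecialCentralizerSetting y Q 11) (hCo : IsoCo2 (centralizer ({y} : Set G) ⧸ Q)) :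
    IsOfBabyMonsterType G := by
  obtain ⟨e⟩ := hCo
  obtain ⟨φ, d⟩ := exists_babyData_of_shape (LX_of_fstar_eq hS.1 Q hS.2.1 hS.2.2.1)
    (by rw [card_map_subtype, hS.2.2.2.1]) (e.toMonoidHom.comp (QuotientGroup.mk' Q))
    (e.surjective.comp (QuotientGroup.mk'_surjective Q)) fun a => by
      rw [coe_mem_map_subtype, ← QuotientGroup.eq_one_iff]
      exact e.map_eq_one_iff
  obtain ⟨g, h1, h2⟩ := nwc_of_setting hS
  exact isOfBabyMonsterType_of d.lx d.card h1 h2 _ d.surj d.ker φ d.mem d.add d.onto d.triv d.conj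

end Cfsg.Agent.MonL
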