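import Cfsg.Agent.MonL.V5b
import Cfsg.Agent.MonL.Pre
import Cfsg.Agent.MonL.SLProd
import Cfsg.Agent.RankOne.Basic

/-! The normaliser `2^(5+10+20).(S3 × L5(2))` in the Monster. -/

set_option autoImplicit false

namespace Cfsg.Agent.MonL

open Subgroup Cfsg Cfsg.Spor Cfsg.Agent.Spor Cfsg.Agent.TT Cfsg.Agent.LES Cfsg.Agent.Spor.Leech
  Cfsg.Agent.C1M Cfsg.Agent.Mon V5
open scoped Matrix

theorem MV.mem_pre_of_comm {G : Type*} [Group G] [Finite G] {z : G} {Q : Subgroup G}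
    {π : centralizer ({z} : Set G) →* Co1} {β : V → G} (d : MV z Q π β)
    {U : Submodule (ZMod 2) V} (hU : Module.finrank (ZMod 2) U ≤ 4)
    (a : centralizer ({z} : Set G)) {k : ℕ} (h2 : a ^ 2 ^ k = 1)
    (h : ∀ q ∈ Q, q ∈ centralizer (d.pre U : Set G) → q * a = a * q) : (a : G) ∈ d.pre U := by
  refine d.lx.mem_of_comm_centralizer d.pre_le d.z_mem_pre ((d.ker a).1 ?_) h
  by_contra h1
  haveI := W3.fin_Co1
  obtain ⟨n, h3, h4⟩ := RankOne.exists_pow_invol (x := π a) fun ho => h1 (orderOf_eq_one_iff.1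
    (((Nat.coprime_two_right.2 ho).pow_right k).eq_one_of_dvd
      (orderOf_dvd_of_pow_eq_one (by rw [← map_pow, h2, map_one]))))
  have h5 := Submodule.finrank_mono (s := LinearMap.range (rho (π a ^ n) + 1).mulVecLin) (t := U) (by
    rintro _ ⟨v, rfl⟩
    rw [Matrix.mulVecLin_apply, Matrix.add_mulVec, Matrix.one_mulVec, ← map_pow]
    exact d.add_mem_of_comm (a ^ n) (fun q hq hc => Commute.pow_right (h q hq hc) n) v)
  have := five_le_rank h3 h4
  exact absurd (this.trans (h5.trans hU)) (by norm_num)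

theorem pCore_SL5 : pCore 2 (Matrix.SpecialLinearGroup (Fin 5) (ZMod 2)) = ⊥ := by
  have hc : center (Matrix.SpecialLinearGroup (Fin 5) (ZMod 2)) = ⊥ := by
    rw [← Subgroup.card_eq_one, Class.card_center_SL]
    simp
  have := S0249.result (F := ZMod 2) 5 (by norm_num)
  have := (QuotientGroup.quotientBot.symm.trans
    (QuotientGroup.quotientMulEquivOfEq hc.symm)).isSimpleGroup
  refine F24.eq_bot_of_simple_two ?_ (pCore_normal 2 _) (Grp.pCore_isPGroup 2 _)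
  have h := Class.card_units_mul_card_SL (ι := Fin 5) (R := ZMod 2)
  rw [Matrix.card_GL_field, Nat.card_units, Nat.card_eq_fintype_card (α := ZMod 2), ZMod.card] at h
  rw [show Nat.card _ = _ from (one_mul _).symm.trans h]
  decide +kernel

theorem shape5 {G : Type*} [Group G] [Finite G] {E : Subgroup G} (hsq : ∀ x ∈ E, x * x = 1)
    (hc : Nat.card E = 2 ^ 5) (θ : centralizer (E : Set G) →* Equiv.Perm (Fin 3))
    (hθ : Function.Surjective θ) (hk : Nat.card θ.ker = 2 ^ 35)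
    (good : ∀ b ∈ E, b ≠ 1 → ∃ R, LX R b ∧ E ≤ R)
    (cen : ∀ x ∈ θ.ker.map (centralizer (E : Set G)).subtype,
      (∀ y ∈ θ.ker.map (centralizer (E : Set G)).subtype, y * x = x * y) → x ∈ E)
    (hle : E ≤ θ.ker.map (centralizer (E : Set G)).subtype) :
    ∃ (E N : Subgroup G) (O : Subgroup N), IsElementaryAbelian 2 E ∧ Nat.card E = 2 ^ 5 ∧
      N = normalizer (E : Set G) ∧ O = pCore 2 N ∧ Nat.card O = 2 ^ 35 ∧
      (center O).map O.subtype = E.subgroupOf N ∧ ∃ _ : O.Normal,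
        Nonempty (N ⧸ O ≃* Equiv.Perm (Fin 3) × Matrix.SpecialLinearGroup (Fin 5) (ZMod 2)) := by
  have hcm := hle.trans (map_subtype_le _)
  have hk2 : IsPGroup 2 θ.ker := IsPGroup.of_card hk
  obtain ⟨κ, hκ⟩ := exists_kappa (fun x : E => Subtype.ext (hsq x x.2)) hc
  let u : Multiplicative (Fin 5 → ZMod 2) →* G :=
    MonoidHom.mk' (fun a => κ a.toAdd) fun a b => by rw [toAdd_mul, hκ, coe_mul]
  have hu : u.range = E := le_antisymm (by rintro _ ⟨a, rfl⟩; exact (κ _).2)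
    fun x hx => ⟨Multiplicative.ofAdd (κ.symm ⟨x, hx⟩), by simp [u]⟩
  have hi : Function.Injective u := fun a b e => κ.injective (Subtype.ext e)
  clear_value u
  subst hu
  obtain ⟨φ, h1, h2⟩ := exists_SL_prod u hi θ hθ
    pCore_two_perm_three (eq_bot_iff.2 fun x hx => (by decide +kernel :
      ∀ x : Equiv.Perm (Fin 3), (∀ g, g * x = x * g) → x = 1) x (mem_center_iff.1 hx)) hk2 good
  have hRN := (map_subtype_le θ.ker).trans (centralizer_le_normalizer (u.range : Set G))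
  have h3 : Nat.card φ.ker = 2 ^ 35 := by
    rw [h2, Grp.card_subgroupOf_of_le hRN, card_map_subtype, hk]
  refine ⟨_, _, φ.ker, ⟨⟨⟨fun a b => Subtype.ext (hcm b.2 a a.2)⟩⟩, fun a ha => by
    rw [pow_two, hsq a ha]⟩, hc, rfl, (pCore_eq_ker φ h1 (IsPGroup.of_card h3)
      (pCore_prod pCore_two_perm_three pCore_SL5)).symm, h3, ?_, inferInstance,
    ⟨QuotientGroup.quotientKerEquivOfSurjective φ h1⟩⟩
  ext n
  constructor
  · rintro ⟨x, hx, rfl⟩
    exact cen _ (h2.le x.2) fun y hy => congrArg (fun t : φ.ker => (t.1 : G))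
      (mem_center_iff.1 hx ⟨⟨y, hRN hy⟩, h2.ge hy⟩)
  · exact fun e => ⟨⟨n, h2.ge (hle e)⟩, mem_center_iff.2 fun y =>
      Subtype.ext (Subtype.ext (map_subtype_le _ (h2.le y.2) n e).symm), rfl⟩

variable {G : Type} [Group G] [Finite G] {z : G} {Q : Subgroup G}
  {π : centralizer ({z} : Set G) →* Co1} {ψ : leechLattice → G}

theorem v5_normalizer (h : If0 z Q π ψ) :
    ∃ (E N : Subgroup G) (O : Subgroup N), IsElementaryAbelian 2 E ∧ Nat.card E = 2 ^ 5 ∧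
      N = normalizer (E : Set G) ∧ O = pCore 2 N ∧ Nat.card O = 2 ^ 35 ∧
      (center O).map O.subtype = E.subgroupOf N ∧ ∃ _ : O.Normal,
        Nonempty (N ⧸ O ≃* Equiv.Perm (Fin 3) × Matrix.SpecialLinearGroup (Fin 5) (ZMod 2)) := by
  obtain ⟨β, d, hβ⟩ := exists_MV' h.mon
  have hs : Eqv z (ψ (e8 none)) (ψ (e8 none)) := Eqv.refl _ _
  obtain ⟨P, hp, hP, -⟩ := h.exists_pair (h.mem_B_of_eqv hs (sqNorm_e8 _)) (h.mon.mem _)
    (h.mon.ne_of_short hs (by rw [sqNorm_e8]; norm_num) (sqNorm_e8 _).le).2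
  let U := LinearMap.range AA.mulVecLin
  have hEP : d.pre U ≤ Q ⊓ P := fun x hx => ⟨d.pre_le hx, by
    obtain ⟨_, ⟨a, rfl⟩, e⟩ := hx
    obtain ⟨y, h1, h2⟩ := exists_four a
    rw [Matrix.mulVecLin_apply, ← h1] at e
    exact h.mem_of_four hp hP hs (e.trans d.zz (hβ y)) h2⟩
  have hsq : ∀ x ∈ d.pre U, x * x = 1 := fun x hx => E_sq hp (hEP hx)
  have hcm : d.pre U ≤ centralizer (d.pre U : Set G) := fun x hx y hy =>
    E_comm hp (hEP hy) (hEP hx)
  have hc : Nat.card (d.pre U) = 2 ^ 5 := by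
    rw [d.card_pre, ← Nat.card_congr (LinearEquiv.ofInjective AA.mulVecLin AA_inj).toEquiv]
    simp
  have hS : ∀ g : Co1, g ∈ SS ↔ ∀ v ∈ U, rho g *ᵥ v = v := fun g =>
    ⟨fun e => by
      rintro _ ⟨a, rfl⟩
      rw [Matrix.mulVecLin_apply, Matrix.mulVec_mulVec, show _ * _ = _ from e],
    fun e => Matrix.mulVec_injective (funext fun a => by
      rw [← Matrix.mulVec_mulVec]; exact e _ ⟨a, rfl⟩)⟩
  obtain ⟨f, hf1, hf2⟩ := exists_psi
  let p : centralizer (d.pre U : Set G) →* SS := (π.comp (inclusion d.cent_pre_le)).codRestrict _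
    fun c => (hS _).2 fun v hv => d.fix_of_cent c.2 hv
  have hp1 : Function.Surjective p := fun g => by
    obtain ⟨a, ha⟩ := h.mon.surj g
    obtain ⟨b, h1, h2⟩ := d.exists_cent_lift a (ha ▸ (hS _).1 g.2)
    exact ⟨⟨b, h2⟩, Subtype.ext (h1.trans ha)⟩
  have hp2 : ∀ c, p c = 1 ↔ (c : G) ∈ Q := fun c => Subtype.ext_iff.trans (d.ker _)
  have hk : Nat.card (f.comp p).ker = 2 ^ 35 := by
    have h1 := Grp.card_map_mul_card_ker_inf p (f.comp p).ker
    have h2 := d.lx.card_mul_card_centralizer (d.pre_le (U := U)) d.z_mem_pre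
    rw [← MonoidHom.comap_ker, map_comap_eq_self_of_surjective hp1, hf2, inf_eq_left.2
      (ker_le_comap _ _), show p.ker = Q.subgroupOf _ from Subgroup.ext hp2,
      ← inf_subgroupOf_right, Grp.card_subgroupOf_of_le inf_le_right] at h1
    rw [hc, h.mon.card] at h2
    rw [← MonoidHom.comap_ker]
    omega
  have hk2 : IsPGroup 2 (f.comp p).ker := IsPGroup.of_card hk
  have good : ∀ b ∈ d.pre U, b ≠ 1 → ∃ R, LX R b ∧ d.pre U ≤ R := by
    have cj : ∀ {b n}, n ∈ normalizer (d.pre U : Set G) → (∃ R, LX R b ∧ d.pre U ≤ R) →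
        ∃ R, LX R (n * b * n⁻¹) ∧ d.pre U ≤ R := fun {b n} hn ⟨R, h1, h2⟩ =>
      ⟨_, h1.map_conj n, fun x hx => ⟨_, h2 ((mem_normalizer_iff''.1 hn x).1 hx), by
        simp [mul_assoc]⟩⟩
    have eq : ∀ {b b'}, b ∈ Q → b ≠ 1 → b ≠ z → Eqv z b' b → (∃ R, LX R b ∧ d.pre U ≤ R) →
        ∃ R, LX R b' ∧ d.pre U ≤ R := fun hb h1 hz e r => by
      obtain ⟨q, hq, rfl⟩ := exists_conj_of_eqv d.lx.toXS hb h1 hz e
      exact cj (mem_normalizer_fintype fun x hx => d.lx.conj_mem d.pre_le d.z_mem_pre hq hx) r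
    obtain ⟨g, hg⟩ := exists_singer
    obtain ⟨n, rfl⟩ := h.mon.surj g
    have hn : ∀ a, rho (π n) *ᵥ (AA *ᵥ a) = AA *ᵥ (BB *ᵥ a) := fun a => by
      rw [Matrix.mulVec_mulVec, hg, Matrix.mulVec_mulVec]
    have key := singer_ind (p := fun a => ∃ b, Eqv z b (β (AA *ᵥ a)) ∧ ∃ R, LX R b ∧ d.pre U ≤ R)
      ⟨_, by
        rw [Matrix.mulVec_single_one, ← wv_zero]
        exact (hβ _).symm d.zz, P, hp.hP, hEP.trans inf_le_right⟩
      fun a ⟨b, h1, r⟩ => ⟨_, hn a ▸ d.eqv_conj n h1, cj (d.mem_norm_pre n (by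
        rintro _ ⟨a, rfl⟩; exact ⟨_, (hn a).symm⟩)) r⟩
    rintro b ⟨_, ⟨a, rfl⟩, e⟩ h1
    by_cases hz : b = z
    · exact ⟨Q, hz ▸ d.lx, d.pre_le⟩
    have h0 : ∀ c, Eqv z c (β (AA *ᵥ a)) → c ≠ 1 ∧ c ≠ z := fun c hc => by
      rw [← not_or, ← eqv_one_iff]
      exact fun e' => not_or.2 ⟨h1, hz⟩ (eqv_one_iff.1 ((e.trans d.zz (hc.symm d.zz)).trans d.zz e'))
    obtain ⟨c, h2, r⟩ := key a (by
      rintro rfl
      exact (h0 1 (by rw [Matrix.mulVec_zero]; exact (d.crd.zero d.lx.toXS).symm d.zz)).1 rfl)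
    exact eq (h2.mem d.lx.z_mem (d.crd.mem _)) (h0 c h2).1 (h0 c h2).2
      (e.trans d.zz (h2.symm d.zz)) r
  have cen : ∀ x ∈ (f.comp p).ker.map (centralizer (d.pre U : Set G)).subtype,
      (∀ y ∈ (f.comp p).ker.map (centralizer (d.pre U : Set G)).subtype, y * x = x * y) →
        x ∈ d.pre U := by
    rintro _ ⟨x, hx, rfl⟩ hc
    obtain ⟨k, e⟩ := hk2 ⟨x, hx⟩
    exact d.mem_pre_of_comm ((Matrix.rank_le_width AA).trans (by simp)) ⟨x, d.cent_pre_le x.2⟩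
      (k := k) (Subtype.ext (congrArg (fun t : (f.comp p).ker => (t.1 : G)) e))
      fun q hq hq' => hc q ⟨⟨q, hq'⟩, by
        rw [SetLike.mem_coe, MonoidHom.mem_ker, MonoidHom.comp_apply, (hp2 _).2 hq, map_one], rfl⟩
  have hle : d.pre U ≤ (f.comp p).ker.map (centralizer (d.pre U : Set G)).subtype := fun x hx =>
    ⟨⟨x, hcm hx⟩, by
      rw [SetLike.mem_coe, MonoidHom.mem_ker, MonoidHom.comp_apply, (hp2 _).2 (d.pre_le hx),
        map_one], rfl⟩
  exact shape5 hsq hc _ (hf1.comp hp1) hk good cen hle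

end Cfsg.Agent.MonL
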