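import Cfsg.Agent.MonL.Shape
import Cfsg.Agent.Spor.M24Res
import Cfsg.Agent.XSC.Co1Tr
import Cfsg.Agent.Mon.Loc

/-! The pointwise stabiliser in `Co1` of a four-dimensional subspace of the Leech lattice modulo
two spanned by the standard frame class and three tetrad classes. -/

set_option autoImplicit false

namespace Cfsg.Agent.MonL.V5

open Subgroup Cfsg Cfsg.Spor Cfsg.Agent.Spor Cfsg.Agent.TT Cfsg.Agent.LES Cfsg.Agent.Spor.Leech
  Cfsg.Agent.LES.Co Cfsg.Agent.C1M Cfsg.Agent.XSC.C1 Cfsg.Agent.Comp Cfsg.Agent.Spor.M24C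
open scoped Matrix Pointwise symmDiff

theorem w4_iff (σ : M24) {c T : Finset GolayPt} (hc : c ∈ GC) {w : leechLattice}
    (hw : ∀ i, (w : GolayPt → ℤ) i = if i ∈ T then 4 else 0) :
    (∃ y, mono σ c hc • w - w = y + y) ↔ (σ • T) ∆ T ∈ GC ∧ (c ∩ T).card % 2 = 0 := by
  let Y : GolayPt → ℤ := fun i =>
    (if i ∈ σ • T then 2 else 0) - (if i ∈ c ∩ σ • T then 4 else 0) - if i ∈ T then 2 else 0
  have h1 : ∀ i, ((mono σ c hc • w - w : leechLattice) : GolayPt → ℤ) i = Y i + Y i := fun i => by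
    have e : (σ : Equiv.Perm GolayPt).symm i ∈ T ↔ i ∈ σ • T := mem_perm_smul.symm
    simp only [AddSubgroup.coe_sub, Pi.sub_apply, mono_smul, signedPerm, hw, e, Y,
      Finset.mem_inter]
    by_cases i ∈ c <;> by_cases i ∈ σ • T <;> by_cases i ∈ T <;> simp [*]
  have h2 : ∀ i, Y i % 4 = if i ∈ (σ • T) ∆ T then 2 else 0 := fun i => by
    simp only [Y, Finset.mem_inter, Finset.mem_symmDiff]
    by_cases i ∈ c <;> by_cases i ∈ σ • T <;> by_cases i ∈ T <;> simp [*]
  have h3 : ∑ i, Y i = -4 * (c ∩ σ • T).card := by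
    simp only [Y, Finset.sum_sub_distrib, sum_ite_mem_const, Finset.card_smul_finset]
    ring
  have h4 : (σ • T) ∆ T ∈ GC → (c ∩ σ • T).card % 2 = (c ∩ T).card % 2 := fun h => by
    have a := GC_inter_even hc h
    have b := card_symmDiff' (c ∩ σ • T) (c ∩ T)
    rw [← show c ∩ _ = (c ∩ σ • T) ∆ (c ∩ T) from inf_symmDiff_distrib_left c _ _] at b
    omega
  constructor
  · rintro ⟨y, hy⟩
    have e : (y : GolayPt → ℤ) = Y := funext fun i => by
      have := h1 i
      rw [hy, AddSubgroup.coe_add, Pi.add_apply] at this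
      omega
    have a := GC_of_even (e ▸ y.2) h2
    refine ⟨a, ?_⟩
    rcases leech_cases (e ▸ y.2 : Y ∈ leechLattice) with ⟨d, -, -, b⟩ | ⟨d, -, b, -⟩
    · have := h4 a; omega
    · have := (h2 none).symm.trans (b none)
      split_ifs at this <;> omega
  · rintro ⟨a, b⟩
    have := h4 a
    exact ⟨⟨Y, mem_leech_of_even a h2 (by omega)⟩, Subtype.ext (funext h1)⟩

/-- three tetrads -/
def tm : Fin 3 → ℕ := ![15, 1310729, 2359301]
/-- the trio -/
def om : Fin 3 → ℕ := ![3416079, 4202192, 9158944]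
/-- test tetrads -/
def sm : Fin 3 → ℕ := ![15, 720928, 4198480]

theorem om_GC (i : Fin 3) : setOf' (om i) ∈ GC :=
  setOf'_mem_codeSets (by revert i; decide +kernel)

theorem om_card (i : Fin 3) : (setOf' (om i)).card = 8 := by
  rw [card_setOf']; revert i; decide +kernel

theorem om_inj {i j : Fin 3} (h : setOf' (om i) = setOf' (om j)) : i = j := by
  have e : ∀ i, om i < 2 ^ 24 := by decide
  exact (by decide : ∀ i j, om i = om j → i = j) i j (setOf'_inj (e i) (e j) h)

theorem tet1 : ∀ f ∈ GC, ∀ k i, (f ∆ setOf' (tm k)).card = 4 →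
    (setOf' (om i) ∩ f ∆ setOf' (tm k)).card % 4 = 0 := by
  have h : allB 4096 (fun a => force (enc a) fun m => allL [15, 1310729, 2359301] fun t =>
      force (Nat.xor m t) fun x => or' (not' (Nat.beq (pop 24 x) 4))
        (allL [3416079, 4202192, 9158944] fun o => Nat.beq (pop 24 (Nat.land o x) % 4) 0)) = true := by
    decide +kernel
  simp only [allB_iff, force_eq, allL_iff, or'_eq_true, not'_eq_true, beq_iff] at h
  refine forall_codeSets fun a ha k i e => ?_
  rw [← setOf'_xor, card_setOf'] at e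
  rw [← setOf'_xor, ← setOf'_land, card_setOf']
  exact (h a ha _ ((by decide +kernel : ∀ k, tm k ∈ [15, 1310729, 2359301]) k)).resolve_left
    (not_not.2 e) _ ((by decide +kernel : ∀ i, om i ∈ [3416079, 4202192, 9158944]) i)

theorem tet2 : ∀ f ∈ GC, f.card = 8 → (∀ k, (f ∩ setOf' (sm k)).card % 4 = 0) →
    ∃ j, f = setOf' (om j) := by
  have h : allB 4096 (fun a => force (enc a) fun m => or' (not' (and' (Nat.beq (pop 24 m) 8)
      (allL [15, 720928, 4198480] fun t => Nat.beq (pop 24 (Nat.land m t) % 4) 0)))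
        (or' (Nat.beq m 3416079) (or' (Nat.beq m 4202192) (Nat.beq m 9158944)))) = true := by
    decide +kernel
  simp only [allB_iff, force_eq, allL_iff, or'_eq_true, not'_eq_true, beq_iff, and'_eq_true] at h
  refine forall_codeSets fun a ha e1 e2 => ?_
  simp only [← setOf'_land, card_setOf'] at e1 e2
  rcases (h a ha).resolve_left (not_not.2 ⟨e1, by
    simp only [List.forall_mem_cons]
    exact ⟨e2 0, e2 1, e2 2, by simp⟩⟩) with e | e | e <;> rw [e]
  exacts [⟨0, rfl⟩, ⟨1, rfl⟩, ⟨2, rfl⟩]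

/-- The permutations fixing the three sextets. -/
def K0 : Subgroup M24 where
  carrier := {σ | ∀ k, (σ • setOf' (tm k)) ∆ setOf' (tm k) ∈ GC}
  one_mem' := fun k => by rw [one_smul, symmDiff_self]; exact GC_empty
  mul_mem' := fun {a b} ha hb k => by
    have := GC_symmDiff (smul_mem_GC a.2 (hb k)) (ha k)
    rwa [Finset.smul_finset_symmDiff, ← Subgroup.smul_def, ← Subgroup.smul_def, symmDiff_assoc,
      symmDiff_symmDiff_cancel_left, smul_smul] at this
  inv_mem' := fun {a} ha k => by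
    have := smul_mem_GC (a⁻¹).2 (ha k)
    rwa [Finset.smul_finset_symmDiff, ← Subgroup.smul_def, ← Subgroup.smul_def, inv_smul_smul,
      symmDiff_comm] at this

theorem K0_trio {σ : M24} (h : σ ∈ K0) (i : Fin 3) : ∃ j, σ • setOf' (om i) = setOf' (om j) := by
  refine tet2 _ (smul_mem_GC σ.2 (om_GC i)) (by rw [Finset.card_smul_finset, om_card]) fun k => ?_
  have a : setOf' (sm k) ∆ setOf' (tm k) ∈ GC := by
    rw [← setOf'_xor]; exact setOf'_mem_codeSets (by revert k; decide +kernel)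
  have b := GC_symmDiff (smul_mem_GC (σ⁻¹).2 a) (inv_mem h k)
  rw [Finset.smul_finset_symmDiff, ← Subgroup.smul_def, ← Subgroup.smul_def, symmDiff_assoc,
    symmDiff_symmDiff_cancel_left] at b
  have := tet1 _ b k i
  rw [symmDiff_symmDiff_cancel_right, Finset.card_smul_finset, card_setOf'] at this
  rw [← Finset.card_smul_finset σ⁻¹, Finset.smul_finset_inter, inv_smul_smul]
  exact this ((by decide +kernel : ∀ k, pop 24 (sm k) = 4) k)

theorem mem_K0_iff {σ : M24} : σ ∈ K0 ↔ allL [15, 1310729, 2359301] (fun t =>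
    force (Nat.xor (imgC (code (σ : Equiv.Perm GolayPt)) t) t) isCW) = true := by
  have e : ∀ {t : ℕ}, t < 2 ^ 24 → ((σ • setOf' t) ∆ setOf' t ∈ GC ↔
      isCW (Nat.xor (imgC (code (σ : Equiv.Perm GolayPt)) t) t) = true) := fun ht => by
    refine (mem_codeSets_iff _).trans ?_
    rw [maskOf_symmDiff, Subgroup.smul_def, maskOf_smul_setOf', maskOf_setOf' ht]; rfl
  simp only [allL_iff, force_eq, List.forall_mem_cons, List.not_mem_nil, false_imp_iff,
    implies_true, and_true]
  rw [← e (by norm_num), ← e (by norm_num), ← e (by norm_num)]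
  exact ⟨fun h => ⟨h 0, h 1, h 2⟩, fun h k => by fin_cases k; exacts [h.1, h.2.1, h.2.2]⟩

theorem mc_mem_K0 {c : ℕ} (h : and' (okM c) (allL [15, 1310729, 2359301] fun t =>
    force (Nat.xor (imgC c t) t) isCW) = true) : mc c ∈ K0 := by
  rw [and'_eq_true] at h
  rw [mem_K0_iff, code_mc h.1, h.2]

/-- The permutations fixing the three sextets and the three octads. -/
def K00 : Subgroup M24 := K0 ⊓ ⨅ i, MulAction.stabilizer M24 (setOf' (om i))

theorem mem_K00 {σ : M24} : σ ∈ K00 ↔ σ ∈ K0 ∧ ∀ i, σ • setOf' (om i) = setOf' (om i) := by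
  rw [K00, mem_inf, mem_iInf]; rfl

theorem card_K01 :
    Nat.card (K00 ⊓ MulAction.stabilizer M24 (setOf' 15) : Subgroup M24) = 32 := by
  rw [← chainM.ncard_fix_sets [15, 3416079, 4202192, 9158944]
    (fun c => allL [15, 1310729, 2359301] fun t => force (Nat.xor (imgC c t) t) isCW) (N := 32)
    (by decide +kernel)]
  refine card_subgroup_eq_ncard fun g => ?_
  simp only [List.forall_mem_cons, List.not_mem_nil, false_imp_iff, implies_true, and_true,
    mem_top, true_and, ← mem_K0_iff, mem_inf, mem_K00]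
  exact ⟨fun h => ⟨⟨h.2, h.1.2 0, h.1.2 1, h.1.2 2⟩, h.1.1⟩, fun h => ⟨⟨h.2, fun k => by
    fin_cases k; exacts [h.1.2.1, h.1.2.2.1, h.1.2.2.2]⟩, h.1.1⟩⟩

theorem two_cosets {g x : M24} {o t : Finset GolayPt} (ho : o ∈ GC) (h8 : o.card = 8) (s : t ⊆ o)
    (a : (g • t) ∆ t ∈ GC) (b : g • o = o) (e : x • t = o ∆ t) (hn : g • t ≠ t) :
    (g * x) • t = t := by
  rw [mul_smul, e, Finset.smul_finset_symmDiff, b]
  rcases Mon.LL.eq_of_subset ho (Or.inl h8) a (symmDiff_le_sup.trans
    (sup_le ((Finset.smul_finset_subset_smul_finset s).trans b.le) s)) with h | h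
  · exact absurd (symmDiff_eq_bot.1 h) hn
  · rw [← h]; exact symmDiff_symmDiff_self' _ _

theorem card_K00 : Nat.card K00 = 64 := by
  have ok : okM 360905398911672687567185504910259892 = true := by decide +kernel
  have e : mc 360905398911672687567185504910259892 • setOf' 15 = setOf' (om 0) ∆ setOf' 15 := by
    rw [mc_smul_setOf' ok, ← setOf'_xor]; exact congrArg _ (by decide +kernel)
  have hx : mc 360905398911672687567185504910259892 ∈ K00 :=
    mem_K00.2 ⟨mc_mem_K0 (by decide +kernel), fun i => by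
      rw [mc_smul_setOf' ok]; exact congrArg _ (by revert i; decide +kernel)⟩
  exact (card_eq_two_mul_of_mul_mem (B := K00 ⊓ MulAction.stabilizer M24 (setOf' 15))
    inf_le_left hx (fun h => absurd (e.symm.trans h.2) (by decide +kernel))
    fun g hg hn => ⟨mul_mem hg hx, two_cosets (om_GC 0) (om_card 0) (by decide +kernel)
      ((mem_K00.1 hg).1 0) ((mem_K00.1 hg).2 0) e fun h => hn ⟨hg, h⟩⟩).trans (by rw [card_K01])

theorem ncard_A : {c | c ∈ GC ∧ ∀ k, (c ∩ setOf' (tm k)).card % 2 = 0}.ncard = 512 := by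
  refine (ncard_codeSets _ (fun m => allL [15, 1310729, 2359301] fun t =>
    Nat.beq (pop 24 (Nat.land m t) % 2) 0) fun m _ => ?_).trans (by decide +kernel)
  simp only [allL_iff, beq_iff, ← setOf'_land, card_setOf', List.forall_mem_cons,
    List.not_mem_nil, false_imp_iff, implies_true, and_true]
  exact ⟨fun h k => by fin_cases k; exacts [h.1, h.2.1, h.2.2], fun h => ⟨h 0, h 1, h 2⟩⟩

end Cfsg.Agent.MonL.V5
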