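import Cfsg.Agent.LES.Monster

/-! The normaliser `2^(1+24).Co3` of a cyclic subgroup of order 4 in a group of Monster type. -/

set_option autoImplicit false

namespace Cfsg.Agent.MonL

open Subgroup Cfsg Cfsg.Spor Cfsg.Agent.TT Cfsg.Agent.LES Cfsg.Agent.Spor.Leech Cfsg.Agent.LES.Co

variable {G : Type*} [Group G]

theorem isExtraspecial_subgroupOf_le [Finite G] {z : G} {Q N : Subgroup G} (h : XS Q z)
    (hle : Q ≤ N) : IsExtraspecial 2 (Q.subgroupOf N) := by
  have : XS (Q.subgroupOf N) ⟨z, hle h.z_mem⟩ := by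
    refine ⟨h.z_mem, fun e => h.z_ne (congrArg Subtype.val e), Subtype.ext h.z_sq,
      fun x hx => Subtype.ext (h.z_comm x hx), fun x hx y hy => ?_, fun x hx hc => ?_, ?_⟩
    · exact (h.comm x hx y hy).imp Subtype.ext Subtype.ext
    · exact (h.cent x hx fun y hy => congrArg Subtype.val
        (hc ⟨y, hle hy⟩ hy)).imp Subtype.ext Subtype.ext
    · obtain ⟨x, hx, h1, h2⟩ := h.nonab
      exact ⟨⟨x, hle hx⟩, hx, fun e => h1 (congrArg Subtype.val e),
        fun e => h2 (congrArg Subtype.val e)⟩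
  exact this.isExtraspecial

def co3Incl : Co3 →* Co0 := inclusion inf_le_left

theorem co3Incl_v (g : Co3) : co3Incl g • leechV = leechV := g.2.2

theorem leechV_ne_neg : leechV ≠ -leechV := fun e => by
  have := congrArg (fun v : leechLattice => (v : GolayPt → ℤ) none) e
  revert this; decide

theorem co3_mk_injective :
    Function.Injective ((QuotientGroup.mk' (center Co0)).comp co3Incl) := fun a b h => by
  rcases mk_eq_mk_Co1.mp h with e | e
  · exact inclusion_injective _ e
  · have := co3Incl_v a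
    rw [e, mul_smul, co3Incl_v, negOne_smul] at this
    exact absurd this.symm leechV_ne_neg

theorem mem_zpowers_four {x y : G} (h : x ^ 4 = 1) :
    y ∈ zpowers x ↔ y = 1 ∨ y = x ∨ y = x * x ∨ y = x * (x * x) := by
  constructor
  · rintro ⟨n, rfl⟩
    have h4 : x ^ (4 : ℤ) = 1 := by exact_mod_cast h
    have : x ^ n = x ^ (n % 4) := by
      conv_lhs => rw [← Int.emod_add_mul_ediv n 4, zpow_add, zpow_mul, h4, one_zpow, mul_one]
    show x ^ n = 1 ∨ x ^ n = x ∨ x ^ n = x * x ∨ x ^ n = x * (x * x)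
    rw [this]
    have h1 : n % 4 = 0 ∨ n % 4 = 1 ∨ n % 4 = 2 ∨ n % 4 = 3 := by omega
    rcases h1 with e | e | e | e <;> rw [e]
    · simp
    · simp
    · right; right; left; exact zpow_two x
    · right; right; right
      rw [show (3 : ℤ) = 1 + 2 from rfl, zpow_add, zpow_one, zpow_two]
  · have hx := mem_zpowers x
    rintro (rfl | rfl | rfl | rfl)
    exacts [one_mem _, hx, mul_mem hx hx, mul_mem hx (mul_mem hx hx)]

theorem z4_normalizer [Finite G] {z : G} {Q : Subgroup G} {π : centralizer ({z} : Set G) →* Co1}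
    {φ : leechLattice → G} (d : MonData z Q π φ) :
    ∃ (C N : Subgroup G) (R : Subgroup N), IsCyclic C ∧ Nat.card C = 4 ∧
      N = normalizer (C : Set G) ∧ IsExtraspecial 2 R ∧ Nat.card R = 2 ^ 25 ∧
      ∃ _ : R.Normal, Nonempty (N ⧸ R ≃* Co3) := by
  set x := φ leechV with hxdef
  have hx : x ∈ Q := d.mem _
  have hxx : x * x = z := (d.lx.sq hx).resolve_left fun e => by
    have := (d.sq_iff (Eqv.refl z x)).1 e
    rw [sqNorm_leechV] at this; omega
  have h4 : x ^ 4 = 1 := d.lx.pow_four hx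
  have hz1 := d.lx.z_ne
  have hord : orderOf x = 4 := by
    refine orderOf_eq_prime_pow (p := 2) (n := 1) ?_ h4
    rw [pow_one, pow_two, hxx]; exact hz1
  have key : ∀ n : G, n ∈ normalizer (zpowers x : Set G) ↔
      n * z = z * n ∧ Eqv z (n * x * n⁻¹) x := by
    intro n
    constructor
    · intro hn
      have h1 := (mem_zpowers_four h4).1 ((mem_normalizer_iff.1 hn x).1 (mem_zpowers x))
      have hsq : n * x * n⁻¹ * (n * x * n⁻¹) = n * z * n⁻¹ := by rw [← hxx]; group
      have hne : n * z * n⁻¹ ≠ 1 := fun e => hz1 (by simpa using e)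
      have h2 : Eqv z (n * x * n⁻¹) x := by
        rcases h1 with e | e | e | e
        · rw [e] at hsq; exact absurd hsq.symm (by simpa using hne)
        · exact Or.inl e
        · rw [e, hxx, d.lx.z_sq] at hsq; exact absurd hsq.symm hne
        · rw [hxx] at e; exact Or.inr e
      refine ⟨comm_of_conj_eq ?_, h2⟩
      rw [← hsq, eqv_sq d.lx.toXS hx h2, hxx]
    · rintro ⟨-, h2⟩
      refine mem_normalizer_fintype (S := (zpowers x : Set G)) ?_
      rintro _ ⟨k, rfl⟩
      have : n * x * n⁻¹ ∈ zpowers x := h2.mem (hxx ▸ mul_mem (mem_zpowers x) (mem_zpowers x))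
        (mem_zpowers x)
      have h3 := zpow_mem this k
      rwa [conj_zpow] at h3
  have hle : normalizer (zpowers x : Set G) ≤ centralizer ({z} : Set G) := fun n hn =>
    mem_centralizer_singleton_iff.2 ((key n).1 hn).1
  have hQ : Q ≤ normalizer (zpowers x : Set G) := fun q hq =>
    (key q).2 ⟨d.lx.z_comm q hq, d.lx.conj hq hx⟩
  let f : normalizer (zpowers x : Set G) →* Co1 := π.comp (inclusion hle)
  have hker : f.ker = Q.subgroupOf _ := by
    ext n; exact d.ker _
  have hrange : f.range = ((QuotientGroup.mk' (center Co0)).comp co3Incl).range := by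
    ext c
    constructor
    · rintro ⟨n, rfl⟩
      obtain ⟨g, hg⟩ := QuotientGroup.mk_surjective (f n)
      have h1 := d.conj _ g hg leechV
      obtain ⟨y, hy⟩ := d.eqv_iff.1 (h1.trans d.z_sq ((key n).1 n.2).2)
      rcases eq_or_neg_of_congr (by rw [sqNorm_smul, sqNorm_leechV]; norm_num)
        (by rw [sqNorm_leechV]; norm_num) hy with e | e
      · exact ⟨⟨g, g.2, e⟩, hg⟩
      · refine ⟨⟨(negOne * g : Co0), (negOne * g).2, ?_⟩, ?_⟩
        · show (negOne * g) • leechV = leechV
          rw [mul_smul, e, negOne_smul, neg_neg]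
        · rw [← hg]; exact mk_eq_mk_Co1.2 (Or.inr rfl)
    · rintro ⟨a, rfl⟩
      obtain ⟨h, hh⟩ := d.exists_lift (co3Incl a)
      have h1 := d.conj h _ hh leechV
      rw [co3Incl_v] at h1
      exact ⟨⟨h, (key h).2 ⟨MonData.comm_z h, h1.symm d.z_sq⟩⟩, hh.symm⟩
  haveI hN : (Q.subgroupOf (normalizer (zpowers x : Set G))).Normal := hker ▸ inferInstance
  refine ⟨zpowers x, _, Q.subgroupOf _, inferInstance, by rw [Nat.card_zpowers, hord], rfl,
    isExtraspecial_subgroupOf_le d.lx.toXS hQ, ?_, hN, ⟨?_⟩⟩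
  · rw [Nat.card_congr (subgroupOfEquivOfLe hQ).toEquiv, d.card]
  · exact ((QuotientGroup.quotientMulEquivOfEq hker.symm).trans
      (QuotientGroup.quotientKerEquivRange f)).trans
      ((MulEquiv.subgroupCongr hrange).trans (MonoidHom.ofInjective co3_mk_injective).symm)

end Cfsg.Agent.MonL
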